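import Cfsg.Agent.H52.SnDefs

/-!
# SN-RED (helper52's team project S2942): if `C_X(V)` normalizes the Sylow 2-subgroup `T` and
`O₂(X)` centralizes `V`, then `O₂(X / C_X(V)) = 1` and `T ∩ C_X(V) ≤ O₂(X)`
-/

set_option autoImplicit false
set_option linter.style.haveILetI false
open Cfsg

namespace Cfsg.Agent.H43.Sn

open Cfsg.Agent.H52.Sn

universe u

/-- A 2-subgroup of odd index is a maximal 2-subgroup. -/
theorem le_of_odd_index {X : Type u} [Group X] [Finite X] {T Q : Subgroup X}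
    (hodd : Odd T.index) (hQ : IsPGroup 2 ↥Q) (hTQ : T ≤ Q) : Q ≤ T := by
  haveI : Fact (Nat.Prime 2) := ⟨Nat.prime_two⟩
  have h1 : T.relIndex Q ∣ T.index := Dvd.intro _ (Subgroup.relIndex_mul_index hTQ)
  have h2 : Odd (T.relIndex Q) := Odd.of_dvd_nat hodd h1
  obtain ⟨n, hn⟩ := IsPGroup.iff_card.mp hQ
  have h3 : T.relIndex Q ∣ 2 ^ n := hn ▸ Subgroup.relIndex_dvd_card T Q
  obtain ⟨j, -, hj⟩ := (Nat.dvd_prime_pow Nat.prime_two).mp h3
  have hj0 : j = 0 := by
    by_contra hne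
    rw [hj] at h2
    exact (Nat.not_even_iff_odd.mpr h2) (Nat.even_pow.mpr ⟨even_two, hne⟩)
  rw [hj0, pow_zero] at hj
  exact Subgroup.relIndex_eq_one.mp hj

/-- A 2-subgroup normalizing a 2-subgroup of odd index lies in it. -/
theorem le_of_le_normalizer {X : Type u} [Group X] [Finite X] {T R : Subgroup X}
    (hT : IsPGroup 2 ↥T) (hodd : Odd T.index) (hR : IsPGroup 2 ↥R)
    (hRN : R ≤ Subgroup.normalizer (T : Set X)) : R ≤ T :=
  le_sup_left.trans
    (le_of_odd_index hodd (IsPGroup.to_sup_of_normal_right' hR hT hRN) le_sup_right)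

/-- If the normal subgroup `D` normalizes the 2-subgroup `T` of odd index, then `T ⊓ D ≤ O₂(X)`. -/
theorem inf_le_pCore {X : Type u} [Group X] [Finite X] {T D : Subgroup X}
    (hT : IsPGroup 2 ↥T) (hodd : Odd T.index) (hD : D.Normal)
    (hDN : D ≤ Subgroup.normalizer (T : Set X)) : T ⊓ D ≤ pCore 2 X := by
  refine le_sSup ⟨⟨fun x hx g => ?_⟩, hT.to_inf_left⟩
  have hR : IsPGroup 2 ↥((T ⊓ D).map (MulAut.conj g).toMonoidHom) := hT.to_inf_left.map _
  have hRD : (T ⊓ D).map (MulAut.conj g).toMonoidHom ≤ D := by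
    rintro y ⟨x', hx', rfl⟩
    exact hD.conj_mem x' hx'.2 g
  have hRT := le_of_le_normalizer hT hodd hR (hRD.trans hDN)
  have hmem : g * x * g⁻¹ ∈ (T ⊓ D).map (MulAut.conj g).toMonoidHom := ⟨x, hx, rfl⟩
  exact ⟨hRT hmem, hRD hmem⟩

/-- **SN-RED**. -/
theorem red : StRed.{u} := by
  intro X _ _ T V _ hT hodd hOC hCN
  haveI : Fact (Nat.Prime 2) := ⟨Nat.prime_two⟩
  refine ⟨?_, inf_le_pCore hT hodd inferInstance hCN⟩
  -- the quotient
  have hNn : (pCore 2 (X ⧸ Subgroup.centralizer (V : Set X))).Normal :=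
    Subgroup.sSup_normal _ (fun _ hH => hH.1)
  have hNp : IsPGroup 2 ↥(pCore 2 (X ⧸ Subgroup.centralizer (V : Set X))) :=
    Sylow.sSup_of_normal _ (fun _ hH => hH.2) (fun _ hH => hH.1)
  have hTm : IsPGroup 2 ↥(T.map (QuotientGroup.mk' (Subgroup.centralizer (V : Set X)))) := hT.map _
  have hTo : Odd (T.map (QuotientGroup.mk' (Subgroup.centralizer (V : Set X)))).index :=
    Odd.of_dvd_nat hodd (Subgroup.index_map_dvd T (QuotientGroup.mk'_surjective _))
  have h1 : pCore 2 (X ⧸ Subgroup.centralizer (V : Set X)) ≤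
      T.map (QuotientGroup.mk' (Subgroup.centralizer (V : Set X))) :=
    le_sup_left.trans
      (le_of_odd_index hTo (IsPGroup.to_sup_of_normal_left hNp hTm) le_sup_right)
  -- the preimage normalizes `T`
  have hDn : ((pCore 2 (X ⧸ Subgroup.centralizer (V : Set X))).comap
      (QuotientGroup.mk' (Subgroup.centralizer (V : Set X)))).Normal := hNn.comap _
  have hDN : (pCore 2 (X ⧸ Subgroup.centralizer (V : Set X))).comap
      (QuotientGroup.mk' (Subgroup.centralizer (V : Set X))) ≤ Subgroup.normalizer (T : Set X) := by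
    intro d hd
    obtain ⟨t, ht, hte⟩ := h1 (Subgroup.mem_comap.mp hd)
    have hc : t⁻¹ * d ∈ Subgroup.centralizer (V : Set X) := QuotientGroup.eq.mp hte
    have : d = t * (t⁻¹ * d) := by group
    rw [this]
    exact mul_mem (Subgroup.le_normalizer ht) (hCN hc)
  have h2 := (inf_le_pCore hT hodd hDn hDN).trans hOC
  rw [Subgroup.eq_bot_iff_forall]
  intro n hn
  obtain ⟨t, ht, rfl⟩ := h1 hn
  have htC : t ∈ Subgroup.centralizer (V : Set X) := h2 ⟨ht, Subgroup.mem_comap.mpr hn⟩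
  exact (QuotientGroup.eq_one_iff t).mpr htC

example : Cfsg.Agent.H52.Sn.StRed.{u} := red

end Cfsg.Agent.H43.Sn
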