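import Mathlib

/-!
# Auxiliary (Mathlib-only) lemmas for the K-CENT piece of JZ-KILL (S2951 / S2952)
-/

set_option autoImplicit false

namespace Cfsg.Agent.H43.Jk

/-- An element of `H ⊔ N`, for elementwise commuting `H` and `N`, is a product. -/
theorem mem_sup_comm {G : Type*} [Group G] (H N : Subgroup G)
    (hc : ∀ a ∈ H, ∀ b ∈ N, a * b = b * a) :
    ∀ x ∈ H ⊔ N, ∃ a ∈ H, ∃ b ∈ N, x = a * b := by
  let P : Subgroup G :=
    { carrier := {x | ∃ a ∈ H, ∃ b ∈ N, x = a * b}
      mul_mem' := by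
        rintro x y ⟨a, ha, b, hb, rfl⟩ ⟨a', ha', b', hb', rfl⟩
        refine ⟨a * a', H.mul_mem ha ha', b * b', N.mul_mem hb hb', ?_⟩
        have := hc a' ha' b hb
        calc a * b * (a' * b') = a * (b * a') * b' := by group
          _ = a * (a' * b) * b' := by rw [this]
          _ = a * a' * (b * b') := by group
      one_mem' := ⟨1, H.one_mem, 1, N.one_mem, by simp⟩
      inv_mem' := by
        rintro x ⟨a, ha, b, hb, rfl⟩
        refine ⟨a⁻¹, H.inv_mem ha, b⁻¹, N.inv_mem hb, ?_⟩
        have := hc a⁻¹ (H.inv_mem ha) b⁻¹ (N.inv_mem hb)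
        rw [mul_inv_rev, this] }
  have hHP : H ≤ P := fun a ha => ⟨a, ha, 1, N.one_mem, by simp⟩
  have hNP : N ≤ P := fun b hb => ⟨1, H.one_mem, b, hb, by simp⟩
  intro x hx
  exact (sup_le hHP hNP) hx

/-- The elements of a four-group. -/
theorem four_elems {G : Type*} [Group G] [Finite G] (W : Subgroup G) (h4 : Nat.card W = 4)
    (hexp : ∀ w ∈ W, w * w = 1) {c w : G} (hc : c ∈ W) (hc1 : c ≠ 1) (hw : w ∈ W) (hw1 : w ≠ 1)
    (hwc : w ≠ c) : ∀ x ∈ W, x = 1 ∨ x = c ∨ x = w ∨ x = w * c := by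
  classical
  have hsub : ({1, c, w, w * c} : Set G) ⊆ (W : Set G) := by
    intro x hx
    simp only [Set.mem_insert_iff, Set.mem_singleton_iff] at hx
    rcases hx with rfl | rfl | rfl | rfl
    · exact W.one_mem
    · exact hc
    · exact hw
    · exact W.mul_mem hw hc
  have h1 : w * c ≠ 1 := by
    intro h
    apply hwc
    have := hexp c hc
    exact mul_right_cancel (h.trans this.symm)
  have h2 : w * c ≠ c := by
    intro h; apply hw1; simpa using h
  have h3 : w * c ≠ w := by
    intro h; apply hc1; simpa using h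
  have hcard : ({1, c, w, w * c} : Set G).ncard = 4 := by
    rw [Set.ncard_insert_of_notMem, Set.ncard_insert_of_notMem, Set.ncard_pair]
    · exact fun h => h3 h.symm
    · simp only [Set.mem_insert_iff, Set.mem_singleton_iff, not_or]
      exact ⟨hwc.symm, fun h => h2 h.symm⟩
    · simp only [Set.mem_insert_iff, Set.mem_singleton_iff, not_or]
      exact ⟨Ne.symm hc1, Ne.symm hw1, Ne.symm h1⟩
  have hW : (W : Set G).ncard = 4 := by
    rw [← Nat.card_coe_set_eq]; exact h4
  have heq : ({1, c, w, w * c} : Set G) = (W : Set G) :=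
    Set.eq_of_subset_of_ncard_le hsub (by rw [hW, hcard])
  intro x hx
  have hx' : x ∈ ({1, c, w, w * c} : Set G) := by rw [heq]; exact hx
  simpa only [Set.mem_insert_iff, Set.mem_singleton_iff] using hx'

/-- An element of odd order normalizing a four-group and moving one of its elements permutes its
three involutions transitively. -/
theorem four_trans {G : Type*} [Group G] [Finite G] (W : Subgroup G) (h4 : Nat.card W = 4)
    (hexp : ∀ w ∈ W, w * w = 1) (g : G) (hgW : ∀ w ∈ W, g * w * g⁻¹ ∈ W)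
    (hodd : Odd (orderOf g)) {w : G} (hw : w ∈ W) (hmv : g * w * g⁻¹ ≠ w) :
    ∀ a ∈ W, a ≠ 1 → ∀ w₀ ∈ W, w₀ ≠ 1 → ∃ k ∈ Subgroup.zpowers g, k * a * k⁻¹ = w₀ := by
  have hw1 : w ≠ 1 := by rintro rfl; apply hmv; simp
  obtain ⟨w', hw'⟩ : ∃ w', w' = g * w * g⁻¹ := ⟨_, rfl⟩
  have hw'W : w' ∈ W := by rw [hw']; exact hgW w hw
  have hw'w : w' ≠ w := by rw [hw']; exact hmv
  have hw'1 : w' ≠ 1 := by
    intro h
    apply hw1
    have h2 : g * w * g⁻¹ = g * 1 * g⁻¹ := by rw [← hw', h]; group
    exact mul_left_cancel (mul_right_cancel h2)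
  have hall := four_elems W h4 hexp hw'W hw'1 hw hw1 (Ne.symm hw'w)
  have hgw' : g * w' * g⁻¹ = w * w' := by
    rcases hall _ (hgW w' hw'W) with h | h | h | h
    · exfalso; apply hw'1
      have h2 : g * w' * g⁻¹ = g * 1 * g⁻¹ := by rw [h]; group
      exact mul_left_cancel (mul_right_cancel h2)
    · exfalso; apply hw'w
      exact mul_left_cancel (mul_right_cancel (h.trans hw'))
    · exfalso; apply hmv
      have hc : Commute (g * g) w := by
        show g * g * w = w * (g * g)
        have h5 : g * (g * w * g⁻¹) * g⁻¹ = w := by rw [← hw']; exact h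
        calc g * g * w = (g * (g * w * g⁻¹) * g⁻¹) * (g * g) := by group
          _ = w * (g * g) := by rw [h5]
      obtain ⟨j, hj⟩ := hodd
      have hg : g = (g * g) ^ (j + 1) := by
        rw [← pow_two, ← pow_mul, show 2 * (j + 1) = orderOf g + 1 by omega, pow_succ,
          pow_orderOf_eq_one, one_mul]
      have hc' : Commute g w := by rw [hg]; exact hc.pow_left _
      rw [hc'.eq]; group
    · exact h
  have hrep : ∀ x ∈ W, x ≠ 1 → ∃ k ∈ Subgroup.zpowers g, k * w * k⁻¹ = x := by
    intro x hx hx1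
    rcases hall x hx with h | h | h | h
    · exact absurd h hx1
    · exact ⟨g, Subgroup.mem_zpowers g, by rw [h, hw']⟩
    · exact ⟨1, Subgroup.one_mem _, by rw [h]; group⟩
    · refine ⟨g * g, Subgroup.mul_mem _ (Subgroup.mem_zpowers g) (Subgroup.mem_zpowers g), ?_⟩
      rw [h, ← hgw', hw']; group
  intro a ha ha1 w₀ hw₀ hw₀1
  obtain ⟨k₁, hk₁, rfl⟩ := hrep a ha ha1
  obtain ⟨k₂, hk₂, rfl⟩ := hrep w₀ hw₀ hw₀1
  exact ⟨k₂ * k₁⁻¹, Subgroup.mul_mem _ hk₂ (Subgroup.inv_mem _ hk₁), by group⟩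

/-- A subgroup generated by elements of odd order acting fixed-point-freely on `W ≠ 1` has an
odd-order element moving something. -/
theorem exists_mover {G : Type*} [Group G] (K W : Subgroup G)
    (hgen : Subgroup.closure {g : G | g ∈ K ∧ Odd (orderOf g)} = K)
    (hfree : W ⊓ Subgroup.centralizer (K : Set G) = ⊥) (hne : W ≠ ⊥) :
    ∃ g ∈ K, Odd (orderOf g) ∧ ∃ w ∈ W, g * w * g⁻¹ ≠ w := by
  by_contra hcon
  push Not at hcon
  have hKc : K ≤ Subgroup.centralizer (W : Set G) := by
    have hcl : Subgroup.closure {g : G | g ∈ K ∧ Odd (orderOf g)} ≤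
        Subgroup.centralizer (W : Set G) := by
      rw [Subgroup.closure_le]
      rintro g ⟨hgK, hgo⟩
      rw [SetLike.mem_coe, Subgroup.mem_centralizer_iff]
      intro w hw
      have := hcon g hgK hgo w hw
      calc w * g = (g * w * g⁻¹) * g := by rw [this]
        _ = g * w := by group
    rw [hgen] at hcl
    exact hcl
  have hWc : W ≤ Subgroup.centralizer (K : Set G) := by
    intro w hw
    rw [Subgroup.mem_centralizer_iff]
    intro k hk
    have := (Subgroup.mem_centralizer_iff.mp (hKc hk)) w hw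
    exact this.symm
  have : W ≤ ⊥ := by rw [← hfree]; exact le_inf le_rfl hWc
  exact hne (le_bot_iff.mp this)

end Cfsg.Agent.H43.Jk
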