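import Mathlib
import Cfsg.Agent.S2952
import Cfsg.Agent.H36.SrVNG
import Cfsg.Agent.Helper55.J48
import Cfsg.Agent.H51.JcNORM
import Cfsg.Agent.S2948
import Cfsg.Agent.S2950
import Cfsg.Agent.H43.JkAux

/-!
# JY-VFACTS (piece of S2953, KILL2): the G-level interface for `V = Ω₁Z(O₂(L))`

In the situation `Base S M S K L`, `N_G(S) ≤ L`, `Base S L T' K' L'`, `T' ≠ S`:
`V = W_K` is a four-group, `N_G(V) = L`, `K` is transitive on `V∖1`, `C_G(u) ≤ L` for
`u ∈ V∖1`, and `V` is a TI-subgroup.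
-/

set_option autoImplicit false
open Cfsg

namespace Cfsg.Agent.H43.Jy

open Cfsg.Agent.H64.Jz Cfsg.Agent.H52.Sr Cfsg.Agent.H43.Jk

universe u

/-- Conjugation by an element of the normalizer fixes the subgroup. -/
theorem map_conj_of_mem_normalizer {G : Type*} [Group G] (K : Subgroup G) {t : G}
    (ht : t ∈ Subgroup.normalizer (K : Set G)) : K.map (MulAut.conj t).toMonoidHom = K := by
  ext x
  constructor
  · rintro ⟨y, hy, rfl⟩
    exact (Subgroup.mem_normalizer_iff.mp ht y).mp hy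
  · intro hx
    refine ⟨t⁻¹ * x * t, ?_, ?_⟩
    · have h1 := (Subgroup.mem_normalizer_iff.mp ht (t⁻¹ * x * t))
      apply h1.mpr
      have e : t * (t⁻¹ * x * t) * t⁻¹ = x := by group
      rw [e]; exact hx
    · show t * (t⁻¹ * x * t) * t⁻¹ = x
      group

/-- JY-VFACTS. -/
theorem vfacts {G : Type u} [Group G] [Finite G] (S : Sylow 2 G) (M K L T' K' L' : Subgroup G)
    (hB : Base S M (S : Subgroup G) K L)
    (hNS : Subgroup.normalizer ((S : Subgroup G) : Set G) ≤ L)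
    (hB' : Base S L T' K' L') (hne : T' ≠ (S : Subgroup G)) :
    Nat.card ↥(omegaCenterOf (S : Subgroup G)) = 2 ∧
    omegaCenterOf (S : Subgroup G) ≤ omegaCenterOf (pCoreOf 2 L) ∧
    omegaCenterOf (pCoreOf 2 L) = wOf K ∧
    Nat.card ↥(omegaCenterOf (pCoreOf 2 L)) = 4 ∧
    (∀ v ∈ omegaCenterOf (pCoreOf 2 L), v * v = 1) ∧
    omegaCenterOf (pCoreOf 2 L) ≤ (S : Subgroup G) ∧
    Subgroup.normalizer (omegaCenterOf (pCoreOf 2 L) : Set G) = L ∧
    (S : Subgroup G) ≤ L ∧ K ≤ L ∧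
    (S : Subgroup G) ≤ Subgroup.normalizer (K : Set G) ∧
    (∀ u ∈ omegaCenterOf (pCoreOf 2 L), u ≠ 1 → ∀ w ∈ omegaCenterOf (pCoreOf 2 L), w ≠ 1 →
      ∃ k ∈ K, k * u * k⁻¹ = w) ∧
    (∀ u ∈ omegaCenterOf (pCoreOf 2 L), u ≠ 1 → Subgroup.centralizer ({u} : Set G) ≤ L) ∧
    (∀ g : G, omegaCenterOf (pCoreOf 2 L) ⊓
        (omegaCenterOf (pCoreOf 2 L)).map (MulAut.conj g).toMonoidHom ≠ ⊥ → g ∈ L) := by
  classical
  have hB0 := hB
  obtain ⟨hZN, hO, hM, hMJ, hT, -, hK, hLmax, hKL⟩ := hB0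
  have hZN' := hZN
  obtain ⟨hc2, hsolv, hZ⟩ := hZN'
  have hS2 : IsPGroup 2 ↥(S : Subgroup G) := S.isPGroup'
  have hSne : (S : Subgroup G) ≠ ⊥ := hT.1.2.1
  have hJle : thompsonSubgroupOf 2 (S : Subgroup G) ≤ (S : Subgroup G) :=
    Subgroup.map_subtype_le _
  obtain ⟨L₀, hL₀max, hKL₀, huniq, -, hSyl₀⟩ :=
    Cfsg.Agent.S2950.result hc2 hsolv hZ hO S M hM hMJ (S : Subgroup G) hT K hK
  have hLL₀ : L = L₀ := huniq L hLmax hKL
  have hSyl : IsSylowTwoIn (S : Subgroup G) L := by rw [hLL₀]; exact hSyl₀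
  have hL2 : IsTwoLocal L := hLmax.1
  have hLM : ¬ L ≤ M := fun h => hK.2.1 ((le_sup_left.trans hKL).trans h)
  have h48 := Cfsg.Agent.S2948.result hc2 hsolv hZ hO S M hM hMJ (S : Subgroup G) hT L hL2 hLM
    (S : Subgroup G) hSyl hJle
  have hLS : L ∈ jOvergroups (S : Subgroup G) := h48.2.2.1
  have hKc : IsJComponent (S : Subgroup G) K := hK.1.1
  have hKleL : K ≤ L := le_sup_left.trans hKL
  have hZcard : Nat.card ↥(omegaCenterOf (S : Subgroup G)) = 2 :=
    Cfsg.Agent.H64.Jz.z2Final S L T' K' L' hB' hne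
  obtain ⟨hLV, hVexp, hVQ, hQL, hQ2⟩ := Cfsg.Agent.H36.Sr.vng L
  have hQS : pCoreOf 2 L ≤ (S : Subgroup G) :=
    Cfsg.Agent.Helper55.J48.pCoreOf_le_of_sylowIn hSyl
  -- a generator of `Ω₁Z(S)`
  obtain ⟨z, hzZ, hz1⟩ : ∃ z ∈ omegaCenterOf (S : Subgroup G), z ≠ 1 := by
    by_contra hcon
    push Not at hcon
    have hb : omegaCenterOf (S : Subgroup G) = ⊥ := by
      rw [Subgroup.eq_bot_iff_forall]; exact hcon
    rw [hb] at hZcard
    simp at hZcard
  have hZel : ∀ y ∈ omegaCenterOf (S : Subgroup G), y = 1 ∨ y = z := by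
    intro y hy
    have h2 := hZcard
    rw [Nat.card_eq_two_iff' (1 : ↥(omegaCenterOf (S : Subgroup G)))] at h2
    obtain ⟨y₀, hy1, hyu⟩ := h2
    by_cases hy1' : y = 1
    · exact Or.inl hy1'
    · right
      have e1 : (⟨y, hy⟩ : ↥(omegaCenterOf (S : Subgroup G))) = y₀ := hyu _ (by
        intro h; exact hy1' (congrArg Subtype.val h))
      have e2 : (⟨z, hzZ⟩ : ↥(omegaCenterOf (S : Subgroup G))) = y₀ := hyu _ (by
        intro h; exact hz1 (congrArg Subtype.val h))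
      exact congrArg Subtype.val (e1.trans e2.symm)
  -- the hypothesis `C_V(S) ∩ C_V(K) = 1`
  have hfix : ∀ v ∈ omegaCenterOf (pCoreOf 2 L),
      v ∈ Subgroup.centralizer ((S : Subgroup G) : Set G) →
      v ∈ Subgroup.centralizer (K : Set G) → v = 1 := by
    intro v hv hvS hvK
    by_contra hv1
    have hvS' : v ∈ (S : Subgroup G) := hQS (hVQ hv)
    have hvv : v * v = 1 := hVexp v hv
    have hvZ : v ∈ omegaCenterOf (S : Subgroup G) := by
      unfold omegaCenterOf omegaOne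
      apply Subgroup.subset_closure
      exact ⟨⟨hvS', hvS⟩, by rw [pow_two]; exact hvv⟩
    have hvz : v = z := by
      rcases hZel v hvZ with h | h
      · exact absurd h hv1
      · exact h
    have hKcent : K ≤ Subgroup.centralizer (omegaCenterOf (S : Subgroup G) : Set G) := by
      intro k hk
      rw [Subgroup.mem_centralizer_iff]
      intro y hy
      rcases hZel y hy with h | h
      · rw [h]; simp
      · rw [h, ← hvz]; exact ((Subgroup.mem_centralizer_iff.mp hvK) k hk).symm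
    have hKN : K ≤ Subgroup.normalizer ((S : Subgroup G) : Set G) := hKcent.trans (hZ S)
    have hKS : K ≤ (S : Subgroup G) := by
      have h1 : ⁅K, thompsonSubgroupOf 2 (S : Subgroup G)⁆ ≤ (S : Subgroup G) := by
        rw [Subgroup.commutator_le]
        intro k hk j hj
        have hjS := hJle hj
        have hkN := hKN hk
        have h3 : k * j * k⁻¹ ∈ (S : Subgroup G) :=
          (Subgroup.mem_normalizer_iff.mp hkN j).mp hjS
        rw [commutatorElement_def]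
        exact Subgroup.mul_mem _ h3 (Subgroup.inv_mem _ hjS)
      rw [hKc.2.1] at h1
      exact h1
    have hK2 : IsPGroup 2 ↥K := hS2.to_le hKS
    have hKbot : K = ⊥ := by
      have hcl : Subgroup.closure {g : G | g ∈ K ∧ Odd (orderOf g)} = ⊥ := by
        rw [Subgroup.closure_eq_bot_iff]
        rintro g ⟨hgK, hgo⟩
        obtain ⟨n, hn⟩ := hK2 ⟨g, hgK⟩
        have hn' : g ^ 2 ^ n = 1 := by simpa using congrArg Subtype.val hn
        have hdvd : orderOf g ∣ 2 ^ n := orderOf_dvd_of_pow_eq_one hn'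
        obtain ⟨m, -, hm⟩ := (Nat.dvd_prime_pow Nat.prime_two).mp hdvd
        have h1 : orderOf g = 1 := by
          rw [hm] at hgo ⊢
          cases m with
          | zero => rfl
          | succ m =>
            exact absurd hgo (Nat.not_odd_iff_even.mpr ⟨2 ^ m, by ring⟩)
        exact orderOf_eq_one_iff.mp h1
      rw [hKc.1] at hcl
      exact hcl
    have h3 := hKc.2.2.1
    rw [hKbot, Subgroup.relIndex_bot_right] at h3
    exact absurd h3 (by norm_num)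
  obtain ⟨hsup, hind, hcomp, hperm, hcw, hfree⟩ :=
    Cfsg.Agent.H52.Sr.struct hc2 hsolv hZ (S : Subgroup G) hS2 hSne L hLS K hKc hKleL hfix
  -- `S ≤ N_G(K)` (S2952)
  have hnormK := Cfsg.Agent.S2952.result hc2 hsolv hZ hO S M hM hMJ (S : Subgroup G) hT K hK
  have hSN : (S : Subgroup G) ≤ Subgroup.normalizer (K : Set G) :=
    le_sup_right.trans ((Subgroup.normal_subgroupOf_iff_le_normalizer le_sup_left).mp hnormK)
  have hOrb : ∀ i : Orb (S : Subgroup G) K, i.1 = K := by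
    rintro ⟨K₁, t, ht, rfl⟩
    exact map_conj_of_mem_normalizer K (hSN ht)
  have hVW : omegaCenterOf (pCoreOf 2 L) = wOf K := by
    rw [← hsup]
    apply le_antisymm
    · exact iSup_le (fun i => by rw [hOrb i])
    · exact le_iSup_of_le (⟨K, 1, Subgroup.one_mem _,
        (map_conj_of_mem_normalizer K (Subgroup.one_mem _)).symm⟩ : Orb (S : Subgroup G) K) le_rfl
  have hW4 : Nat.card ↥(wOf K) = 4 := hKc.2.2.2.2.1
  have hVcard : Nat.card ↥(omegaCenterOf (pCoreOf 2 L)) = 4 := by rw [hVW]; exact hW4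
  have hVS : omegaCenterOf (pCoreOf 2 L) ≤ (S : Subgroup G) := hVQ.trans hQS
  -- `Ω₁Z(S) ≤ V`
  have hZV : omegaCenterOf (S : Subgroup G) ≤ omegaCenterOf (pCoreOf 2 L) := by
    have hcl : Subgroup.closure {x : G | x ∈ (S : Subgroup G) ⊓
        Subgroup.centralizer ((S : Subgroup G) : Set G) ∧ x ^ 2 = 1} ≤
        omegaCenterOf (pCoreOf 2 L) := by
      rw [Subgroup.closure_le]
      rintro x ⟨⟨hxS, hxC⟩, hx2⟩
      have hxCQ : x ∈ Subgroup.centralizer (pCoreOf 2 L : Set G) :=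
        Subgroup.centralizer_le (fun y hy => hQS hy) hxC
      have hxQ : x ∈ pCoreOf 2 L := hLS.2.2 hxCQ
      show x ∈ omegaCenterOf (pCoreOf 2 L)
      unfold omegaCenterOf omegaOne
      exact Subgroup.subset_closure ⟨⟨hxQ, hxCQ⟩, hx2⟩
    exact hcl
  have hzV : z ∈ omegaCenterOf (pCoreOf 2 L) := hZV hzZ
  -- `N_G(V) = L`
  have hNV : Subgroup.normalizer (omegaCenterOf (pCoreOf 2 L) : Set G) = L := by
    have hV2 : IsPGroup 2 ↥(omegaCenterOf (pCoreOf 2 L)) := hQ2.to_le hVQ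
    have hVne : omegaCenterOf (pCoreOf 2 L) ≠ ⊥ := by
      intro h
      rw [h] at hVcard
      simp at hVcard
    exact hLmax.2 _ ⟨_, hV2, hVne, rfl⟩ hLV
  -- `K` is transitive on `V∖1`
  have hWne : wOf K ≠ ⊥ := by
    intro h
    rw [h] at hW4
    simp at hW4
  have hfreeK : wOf K ⊓ Subgroup.centralizer (K : Set G) = ⊥ :=
    hfree (⟨K, 1, Subgroup.one_mem _,
      (map_conj_of_mem_normalizer K (Subgroup.one_mem _)).symm⟩ : Orb (S : Subgroup G) K)
  obtain ⟨g, hgK, hgo, w, hw, hmv⟩ := exists_mover K (wOf K) hKc.1 hfreeK hWne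
  have hnormW := Cfsg.Agent.H51.Jc.wOf_norm (K := K) (J := K) Subgroup.le_normalizer
  have hgW : ∀ w ∈ wOf K, g * w * g⁻¹ ∈ wOf K :=
    fun w hw => hnormW g (Subgroup.mem_sup_left hgK) w hw
  have htr : ∀ a ∈ omegaCenterOf (pCoreOf 2 L), a ≠ 1 →
      ∀ w₀ ∈ omegaCenterOf (pCoreOf 2 L), w₀ ≠ 1 → ∃ k ∈ K, k * a * k⁻¹ = w₀ := by
    intro a ha ha1 w₀ hw₀ hw₀1
    rw [hVW] at ha hw₀
    obtain ⟨k, hk, hkeq⟩ := four_trans (wOf K) hW4 hKc.2.2.2.2.2 g hgW hgo hw hmv a ha ha1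
      w₀ hw₀ hw₀1
    exact ⟨k, (Subgroup.zpowers_le.mpr hgK) hk, hkeq⟩
  -- `C_G(z) ≤ L`
  have hCz : Subgroup.centralizer ({z} : Set G) ≤ L := by
    refine le_trans ?_ ((hZ S).trans hNS)
    intro x hx
    rw [Subgroup.mem_centralizer_iff]
    intro y hy
    rcases hZel y hy with h | h
    · rw [h]; simp
    · rw [h]; exact (Subgroup.mem_centralizer_iff.mp hx) z rfl
  have hCu : ∀ u ∈ omegaCenterOf (pCoreOf 2 L), u ≠ 1 →
      Subgroup.centralizer ({u} : Set G) ≤ L := by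
    intro u hu hu1 x hx
    obtain ⟨k, hk, e⟩ := htr u hu hu1 z hzV hz1
    have hxu : u * x = x * u := (Subgroup.mem_centralizer_iff.mp hx) u rfl
    have h1 : k * x * k⁻¹ ∈ Subgroup.centralizer ({z} : Set G) := by
      rw [Subgroup.mem_centralizer_iff]
      intro h hh
      rw [Set.mem_singleton_iff.mp hh, ← e]
      calc k * u * k⁻¹ * (k * x * k⁻¹) = k * (u * x) * k⁻¹ := by group
        _ = k * (x * u) * k⁻¹ := by rw [hxu]
        _ = k * x * k⁻¹ * (k * u * k⁻¹) := by group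
    have h2 := hCz h1
    have e3 : x = k⁻¹ * (k * x * k⁻¹) * k := by group
    rw [e3]
    exact L.mul_mem (L.mul_mem (L.inv_mem (hKleL hk)) h2) (hKleL hk)
  have hTI : ∀ g : G, omegaCenterOf (pCoreOf 2 L) ⊓
      (omegaCenterOf (pCoreOf 2 L)).map (MulAut.conj g).toMonoidHom ≠ ⊥ → g ∈ L := by
    intro g hg
    obtain ⟨u, hu, hu1⟩ : ∃ u ∈ omegaCenterOf (pCoreOf 2 L) ⊓
        (omegaCenterOf (pCoreOf 2 L)).map (MulAut.conj g).toMonoidHom, u ≠ 1 := by
      by_contra hcon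
      push Not at hcon
      exact hg ((Subgroup.eq_bot_iff_forall _).mpr hcon)
    obtain ⟨huV, huM⟩ := Subgroup.mem_inf.mp hu
    obtain ⟨v, hvV, hvu⟩ := Subgroup.mem_map.mp huM
    have hvu' : g * v * g⁻¹ = u := hvu
    have hv1 : v ≠ 1 := by
      rintro rfl
      apply hu1
      rw [← hvu']; group
    obtain ⟨k₁, hk₁, e₁⟩ := htr u huV hu1 z hzV hz1
    obtain ⟨k₂, hk₂, e₂⟩ := htr v hvV hv1 z hzV hz1
    have hmem : k₁ * g * k₂⁻¹ ∈ Subgroup.centralizer ({z} : Set G) := by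
      rw [Subgroup.mem_centralizer_iff]
      intro h hh
      rw [Set.mem_singleton_iff.mp hh]
      have e4 : k₁ * g * k₂⁻¹ * z = z * (k₁ * g * k₂⁻¹) := by
        calc k₁ * g * k₂⁻¹ * z = k₁ * g * k₂⁻¹ * (k₂ * v * k₂⁻¹) := by rw [e₂]
          _ = k₁ * (g * v * g⁻¹) * k₁⁻¹ * (k₁ * g * k₂⁻¹) := by group
          _ = z * (k₁ * g * k₂⁻¹) := by rw [hvu', e₁]
      exact e4.symm
    have hL' := hCz hmem
    have e5 : g = k₁⁻¹ * (k₁ * g * k₂⁻¹) * k₂ := by group
    rw [e5]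
    exact L.mul_mem (L.mul_mem (L.inv_mem (hKleL hk₁)) hL') (hKleL hk₂)
  exact ⟨hZcard, hZV, hVW, hVcard, hVexp, hVS, hNV, hSyl.1, hKleL, hSN, htr, hCu, hTI⟩

end Cfsg.Agent.H43.Jy

#print axioms Cfsg.Agent.H43.Jy.vfacts
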