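import Mathlib
import Cfsg.Prelude.Def_HallClasses
import Cfsg.Agent.H43.HallAlt

/-!
# The full Sylow analogue for Hall subgroups of alternating groups
-/

set_option autoImplicit false

namespace Cfsg.Agent.H43

open Equiv Equiv.Perm MulAction
open scoped Nat

universe u

section generic

variable {X : Type u} [Group X] [Finite X]

omit [Finite X] in
theorem map_conj_one (H : Subgroup X) : H = H.map (MulAut.conj (1 : X)).toMonoidHom := by
  ext g
  simp

omit [Finite X] in
/-- If every prime divisor of the order lies in `π`, the group is a `D_π`-group. -/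
theorem dpi_of_full {π : Set ℕ} (h : ∀ r : ℕ, r.Prime → r ∣ Nat.card X → r ∈ π) :
    Cfsg.IsDPiGroup π X := by
  have hall : ∀ K : Subgroup X, Cfsg.IsPiSubgroup π K := fun K p hp hd =>
    h p hp (dvd_trans hd (Subgroup.card_subgroup_dvd_card K))
  have htop : ∀ H : Subgroup X, Maximal (Cfsg.IsPiSubgroup π) H → H = ⊤ := fun H hH =>
    top_le_iff.mp (hH.2 (hall ⊤) le_top)
  intro H K hH hK
  refine ⟨1, ?_⟩
  rw [htop H hH, htop K hK]
  exact map_conj_one ⊤

/-- If at most one prime of `π` divides the order, the group is a `D_π`-group (Sylow). -/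
theorem dpi_of_le_one {π : Set ℕ}
    (h : ∀ r s : ℕ, r.Prime → s.Prime → r ∈ π → s ∈ π → r ∣ Nat.card X → s ∣ Nat.card X → r = s) :
    Cfsg.IsDPiGroup π X := by
  intro H K hH hK
  by_cases h1 : ∃ p : ℕ, p.Prime ∧ p ∈ π ∧ p ∣ Nat.card X
  · obtain ⟨p, hp, hpπ, hpd⟩ := h1
    haveI : Fact p.Prime := ⟨hp⟩
    have hpi : ∀ Q : Subgroup X, IsPGroup p Q → Cfsg.IsPiSubgroup π Q := by
      intro Q hQ q hq hqd
      obtain ⟨k, hk⟩ := IsPGroup.iff_card.mp hQ
      rw [hk] at hqd
      rw [(Nat.prime_dvd_prime_iff_eq hq hp).mp (hq.dvd_of_dvd_pow hqd)]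
      exact hpπ
    have key : ∀ H : Subgroup X, Maximal (Cfsg.IsPiSubgroup π) H →
        HallIn π H ⊤ ∧ IsPGroup p H := by
      intro H hH
      have hHp : IsPGroup p H := by
        apply IsPGroup.of_card (n := (Nat.card H).primeFactorsList.length)
        exact Nat.eq_prime_pow_of_unique_prime_dvd Nat.card_pos.ne' (fun {d} hd hdvd =>
          h d p hd hp (hH.1 d hd hdvd) hpπ
            (dvd_trans hdvd (Subgroup.card_subgroup_dvd_card H)) hpd)
      obtain ⟨P, hP⟩ := hHp.exists_le_sylow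
      have hPH : (P : Subgroup X) ≤ H := hH.2 (hpi P P.isPGroup') hP
      refine ⟨⟨le_top, hH.1, fun q hq hqπ hqd => ?_⟩, hHp⟩
      rw [Subgroup.relIndex_top_right] at hqd
      have hqX : q ∣ Nat.card X := dvd_trans hqd (Subgroup.index_dvd_card H)
      have hqp : q = p := h q p hq hp hqπ hpπ hqX hpd
      rw [hqp] at hqd
      exact P.not_dvd_index (dvd_trans hqd (Subgroup.index_dvd_of_le hPH))
    obtain ⟨g, -, hg⟩ := hall_conj_pgroup (key H hH).1 (key K hK).1 hp hpπ (key H hH).2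
    exact ⟨g, hg⟩
  · push Not at h1
    have htriv : ∀ H : Subgroup X, Cfsg.IsPiSubgroup π H → H = ⊥ := by
      intro H hH
      rw [← Subgroup.card_eq_one]
      by_contra hne
      obtain ⟨p, hp, hpd⟩ := Nat.exists_prime_and_dvd hne
      exact h1 p hp (hH p hp hpd) (dvd_trans hpd (Subgroup.card_subgroup_dvd_card H))
    refine ⟨1, ?_⟩
    rw [htriv H hH.1, htriv K hK.1]
    exact map_conj_one ⊥

/-- In a `D_π`-group there is a Hall `π`-subgroup containing a conjugate of every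
`π`-subgroup. -/
theorem hall_of_dpi {π : Set ℕ} (hD : Cfsg.IsDPiGroup π X) :
    ∃ M : Subgroup X, Cfsg.IsPiHall π M ∧ ∀ K : Subgroup X, Cfsg.IsPiSubgroup π K →
      ∃ g : X, K ≤ M.map (MulAut.conj g).toMonoidHom := by
  have hbot : Cfsg.IsPiSubgroup π (⊥ : Subgroup X) := by
    intro p hp hd
    rw [Subgroup.card_bot] at hd
    exact absurd (Nat.dvd_one.mp hd) hp.one_lt.ne'
  obtain ⟨M, -, hM⟩ := Finite.exists_le_maximal hbot
  have hconj : ∀ K : Subgroup X, Cfsg.IsPiSubgroup π K →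
      ∃ g : X, K ≤ M.map (MulAut.conj g).toMonoidHom := by
    intro K hK
    obtain ⟨H, hKH, hH⟩ := Finite.exists_le_maximal hK
    obtain ⟨g, hg⟩ := hD M H hM hH
    exact ⟨g, hg ▸ hKH⟩
  refine ⟨M, ⟨hM.1, fun p hp hpπ hd => ?_⟩, hconj⟩
  haveI : Fact p.Prime := ⟨hp⟩
  obtain ⟨P⟩ : Nonempty (Sylow p X) := inferInstance
  have hP : Cfsg.IsPiSubgroup π (P : Subgroup X) := by
    intro q hq hqd
    rw [P.card_eq_multiplicity] at hqd
    rw [(Nat.prime_dvd_prime_iff_eq hq hp).mp (hq.dvd_of_dvd_pow hqd)]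
    exact hpπ
  obtain ⟨g, hg⟩ := hconj P hP
  have h1 : (M.map (MulAut.conj g).toMonoidHom).index ∣ (P : Subgroup X).index :=
    Subgroup.index_dvd_of_le hg
  have h2 : (M.map (MulAut.conj g).toMonoidHom).index = M.index :=
    Subgroup.index_map_equiv M (MulAut.conj g)
  rw [h2] at h1
  exact P.not_dvd_index (dvd_trans hd h1)

omit [Finite X] in
theorem sub_conj_lift {A : Subgroup X} {M : Subgroup ↥A} {K' : Subgroup X} (hK' : K' ≤ A)
    {g : ↥A} (h : K'.subgroupOf A ≤ M.map (MulAut.conj g).toMonoidHom) :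
    K' ≤ (M.map A.subtype).map (MulAut.conj (g : X)).toMonoidHom := by
  intro k hk
  obtain ⟨m, hm, hmk⟩ := h (show (⟨k, hK' hk⟩ : ↥A) ∈ K'.subgroupOf A from hk)
  refine ⟨(m : X), ⟨m, hm, rfl⟩, ?_⟩
  have := congrArg Subtype.val hmk
  simpa using this

end generic

section perm

variable {α : Type u} [Fintype α] [DecidableEq α]

omit [Fintype α] [DecidableEq α] in
theorem card_fiber_comp {ι : Type*} (c : α → ι) (g : Perm α) (i : ι) :
    Nat.card {x // c (g x) = i} = Nat.card {x // c x = i} :=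
  Nat.card_congr (g.subtypeEquiv (fun _ => Iff.rfl))

/-- The even permutations preserving a colouring with two classes of size at least two fix no
point. -/
theorem moved_by_colorStab (c₃ : α → Bool) (h1 : ∃ x y, x ≠ y ∧ c₃ x = true ∧ c₃ y = true)
    (h0 : ∃ x y, x ≠ y ∧ c₃ x = false ∧ c₃ y = false) (x : α) :
    ∃ k ∈ alternatingGroup α ⊓ colorStab c₃, k x ≠ x := by
  obtain ⟨a₁, a₂, ha, ha₁, ha₂⟩ := h1
  obtain ⟨b₁, b₂, hb, hb₁, hb₂⟩ := h0
  have gen : ∀ x' u v : α, x' ≠ x → c₃ x' = c₃ x → u ≠ v → c₃ u = c₃ v → c₃ u ≠ c₃ x →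
      ∃ k ∈ alternatingGroup α ⊓ colorStab c₃, k x ≠ x := by
    intro x' u v hx' hcx huv hcuv hcu
    refine ⟨swap x x' * swap u v, Subgroup.mem_inf.mpr ⟨?_, (colorStab c₃).mul_mem
      (swap_mem_colorStab c₃ hcx.symm) (swap_mem_colorStab c₃ hcuv)⟩, ?_⟩
    · rw [mem_alternatingGroup, Perm.sign_mul, sign_swap hx'.symm, sign_swap huv]
      rfl
    · have hxu : x ≠ u := fun h => hcu (by rw [h])
      have hxv : x ≠ v := fun h => hcu (by rw [hcuv, h])
      rw [Perm.mul_apply, swap_apply_of_ne_of_ne hxu hxv, swap_apply_left]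
      exact hx'
  cases hx : c₃ x
  · by_cases hxb : x = b₁
    · exact gen b₂ a₁ a₂ (by rw [hxb]; exact hb.symm) (by rw [hb₂, hx]) ha (by rw [ha₁, ha₂])
        (by rw [ha₁, hx]; decide)
    · exact gen b₁ a₁ a₂ (Ne.symm hxb) (by rw [hb₁, hx]) ha (by rw [ha₁, ha₂])
        (by rw [ha₁, hx]; decide)
  · by_cases hxa : x = a₁
    · exact gen a₂ b₁ b₂ (by rw [hxa]; exact ha.symm) (by rw [ha₂, hx]) hb (by rw [hb₁, hb₂])
        (by rw [hb₁, hx]; decide)
    · exact gen a₁ b₁ b₂ (Ne.symm hxa) (by rw [ha₁, hx]) hb (by rw [hb₁, hb₂])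
        (by rw [hb₁, hx]; decide)

theorem point_stab_absurd (c₃ c' : α → Bool) (h1 : ∃ x y, x ≠ y ∧ c₃ x = true ∧ c₃ y = true)
    (h0 : ∃ x y, x ≠ y ∧ c₃ x = false ∧ c₃ y = false)
    (hc' : Nat.card {x // c' x = true} = 1)
    (hle : alternatingGroup α ⊓ colorStab c₃ ≤ colorStab c') : False := by
  obtain ⟨hsub, hne⟩ := (Nat.card_eq_one_iff_unique (α := {x // c' x = true})).mp hc'
  obtain ⟨⟨x₀, hx₀⟩⟩ := hne
  obtain ⟨k, hk, hkx⟩ := moved_by_colorStab c₃ h1 h0 x₀
  have h2 := hle hk x₀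
  rw [hx₀] at h2
  have := hsub.elim ⟨k x₀, h2⟩ ⟨x₀, hx₀⟩
  exact hkx (congrArg Subtype.val this)

theorem colorStab_prime_lt (c₃ : α → Bool) (h1 : ∃ x y, x ≠ y ∧ c₃ x = true ∧ c₃ y = true)
    (h0 : ∃ x y, x ≠ y ∧ c₃ x = false ∧ c₃ y = false) {p : ℕ} (hp : p.Prime)
    (hd : p ∣ Nat.card (colorStab c₃)) : p < Fintype.card α := by
  rw [card_colorStab_bool] at hd
  have hsum := card_bool_fibers c₃
  obtain ⟨a₁, a₂, ha, ha₁, ha₂⟩ := h1
  obtain ⟨b₁, b₂, hb, hb₁, hb₂⟩ := h0
  have hA : 1 < Nat.card {x // c₃ x = true} :=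
    Finite.one_lt_card_iff_nontrivial.mpr
      ⟨⟨⟨a₁, ha₁⟩, ⟨a₂, ha₂⟩, fun h => ha (congrArg Subtype.val h)⟩⟩
  have hB : 1 < Nat.card {x // c₃ x = false} :=
    Finite.one_lt_card_iff_nontrivial.mpr
      ⟨⟨⟨b₁, hb₁⟩, ⟨b₂, hb₂⟩, fun h => hb (congrArg Subtype.val h)⟩⟩
  rcases (Nat.Prime.dvd_mul hp).mp hd with h | h
  · have := (Nat.Prime.dvd_factorial hp).mp h
    omega
  · have := (Nat.Prime.dvd_factorial hp).mp h
    omega

end perm

/-- A fixed-point-free involution on six of seven points. -/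
def t7 : Perm (Fin 7) := swap 0 3 * swap 1 4 * swap 2 5

/-- A `{2, 3}`-subgroup of the alternating group of degree `7` preserving no `3`-set. -/
def K7 : Subgroup (Perm (Fin 7)) := alternatingGroup (Fin 7) ⊓ Subgroup.centralizer {t7}

theorem K7_card_dvd : Nat.card K7 ∣ 2 ^ 4 * 3 ^ 1 := by
  have h1 : Nat.card K7 ∣ Nat.card (Subgroup.centralizer {t7}) :=
    Subgroup.card_dvd_of_le inf_le_right
  have h2 : Nat.card (Subgroup.centralizer {t7}) = 2 ^ 4 * 3 ^ 1 := by
    rw [Equiv.Perm.nat_card_centralizer]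
    have : t7.cycleType = {2, 2, 2} := by decide
    rw [this]
    decide
  rwa [h2] at h1

theorem K7_absurd (c' : Fin 7 → Bool) (hc' : Nat.card {x // c' x = true} = 3)
    (hle : K7 ≤ colorStab c') : False := by
  have hk1 : (swap 0 3 * swap 1 4 : Perm (Fin 7)) ∈ K7 := by
    refine Subgroup.mem_inf.mpr ⟨?_, ?_⟩
    · rw [mem_alternatingGroup]
      decide
    · rw [Subgroup.mem_centralizer_iff]
      intro h hh
      rw [Set.mem_singleton_iff.mp hh]
      decide
  have hk2 : ((swap 0 1 * swap 1 2) * (swap 3 4 * swap 4 5) : Perm (Fin 7)) ∈ K7 := by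
    refine Subgroup.mem_inf.mpr ⟨?_, ?_⟩
    · rw [mem_alternatingGroup]
      decide
    · rw [Subgroup.mem_centralizer_iff]
      intro h hh
      rw [Set.mem_singleton_iff.mp hh]
      decide
  have h1 := hle hk1
  have h2 := hle hk2
  have e3 : c' 3 = c' 0 := by
    have := h1 0
    rwa [show (swap 0 3 * swap 1 4 : Perm (Fin 7)) 0 = 3 from by decide] at this
  have e1 : c' 1 = c' 0 := by
    have := h2 0
    rwa [show ((swap 0 1 * swap 1 2) * (swap 3 4 * swap 4 5) : Perm (Fin 7)) 0 = 1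
      from by decide] at this
  have e2 : c' 2 = c' 0 := by
    have := h2 1
    rw [show ((swap 0 1 * swap 1 2) * (swap 3 4 * swap 4 5) : Perm (Fin 7)) 1 = 2
      from by decide] at this
    rw [this, e1]
  have e4 : c' 4 = c' 0 := by
    have := h2 3
    rw [show ((swap 0 1 * swap 1 2) * (swap 3 4 * swap 4 5) : Perm (Fin 7)) 3 = 4
      from by decide] at this
    rw [this, e3]
  have e5 : c' 5 = c' 0 := by
    have := h2 4
    rw [show ((swap 0 1 * swap 1 2) * (swap 3 4 * swap 4 5) : Perm (Fin 7)) 4 = 5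
      from by decide] at this
    rw [this, e4]
  rw [Nat.card_eq_fintype_card, Fintype.card_subtype, Finset.card_filter,
    Fin.sum_univ_seven, e1, e2, e3, e4, e5] at hc'
  generalize c' 0 = b0 at hc'
  generalize c' 6 = b6 at hc'
  cases b0 <;> cases b6 <;> simp at hc'

/-- A colouring of eight points with classes of sizes `3`, `3`, `2`. -/
def c8 : Fin 8 → Fin 3 := fun x => if x.val < 3 then 0 else if x.val < 6 then 1 else 2

/-- A `{2, 3}`-subgroup of the alternating group of degree `8` preserving no partition into two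
`4`-sets. -/
def K8 : Subgroup (Perm (Fin 8)) := alternatingGroup (Fin 8) ⊓ colorStab c8

theorem K8_card_dvd : Nat.card K8 ∣ 2 ^ 3 * 3 ^ 2 := by
  have h1 : Nat.card K8 ∣ Nat.card (colorStab c8) := Subgroup.card_dvd_of_le inf_le_right
  have h2 : Nat.card (colorStab c8) = 2 ^ 3 * 3 ^ 2 := by
    rw [card_colorStab, Fin.prod_univ_three]
    have f0 : Nat.card {a // c8 a = 0} = 3 := by rw [Nat.card_eq_fintype_card]; decide
    have f1 : Nat.card {a // c8 a = 1} = 3 := by rw [Nat.card_eq_fintype_card]; decide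
    have f2 : Nat.card {a // c8 a = 2} = 2 := by rw [Nat.card_eq_fintype_card]; decide
    rw [f0, f1, f2]
    decide
  rwa [h2] at h1

theorem K8_absurd (c' : Fin 8 → Bool) (hc' : Nat.card {x // c' x = true} = 4)
    (hle : K8 ≤ pairStab c') : False := by
  have hk1 : (swap 0 1 * swap 1 2 : Perm (Fin 8)) ∈ K8 := by
    refine Subgroup.mem_inf.mpr ⟨?_, ?_⟩
    · rw [mem_alternatingGroup]
      decide
    · rw [mem_colorStab]
      decide
  have hk2 : (swap 3 4 * swap 4 5 : Perm (Fin 8)) ∈ K8 := by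
    refine Subgroup.mem_inf.mpr ⟨?_, ?_⟩
    · rw [mem_alternatingGroup]
      decide
    · rw [mem_colorStab]
      decide
  have hk3 : (swap 0 1 * swap 6 7 : Perm (Fin 8)) ∈ K8 := by
    refine Subgroup.mem_inf.mpr ⟨?_, ?_⟩
    · rw [mem_alternatingGroup]
      decide
    · rw [mem_colorStab]
      decide
  have hfix : ∀ (k : Perm (Fin 8)) (z : Fin 8), k ∈ K8 → k z = z → ∀ x, c' (k x) = c' x := by
    intro k z hk hz
    rcases hle hk with h | h
    · exact h
    · exfalso
      have := h z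
      rw [hz] at this
      cases hcz : c' z <;> simp [hcz] at this
  have h1 := hfix _ 7 hk1 (by decide)
  have h2 := hfix _ 7 hk2 (by decide)
  have h3 := hfix _ 2 hk3 (by decide)
  have e1 : c' 1 = c' 0 := by
    have := h1 0
    rwa [show (swap 0 1 * swap 1 2 : Perm (Fin 8)) 0 = 1 from by decide] at this
  have e2 : c' 2 = c' 0 := by
    have := h1 1
    rw [show (swap 0 1 * swap 1 2 : Perm (Fin 8)) 1 = 2 from by decide] at this
    rw [this, e1]
  have e4 : c' 4 = c' 3 := by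
    have := h2 3
    rwa [show (swap 3 4 * swap 4 5 : Perm (Fin 8)) 3 = 4 from by decide] at this
  have e5 : c' 5 = c' 3 := by
    have := h2 4
    rw [show (swap 3 4 * swap 4 5 : Perm (Fin 8)) 4 = 5 from by decide] at this
    rw [this, e4]
  have e7 : c' 7 = c' 6 := by
    have := h3 6
    rwa [show (swap 0 1 * swap 6 7 : Perm (Fin 8)) 6 = 7 from by decide] at this
  rw [Nat.card_eq_fintype_card, Fintype.card_subtype, Finset.card_filter,
    Fin.sum_univ_eight, e1, e2, e4, e5, e7] at hc'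
  generalize c' 0 = b0 at hc'
  generalize c' 3 = b3 at hc'
  generalize c' 6 = b6 at hc'
  cases b0 <;> cases b3 <;> cases b6 <;> simp at hc'

/-- For `n ≥ 5`, if two primes of `π` divide `|A_n|` and some prime divisor of `|A_n|` is not in
`π`, then `A_n` is not a `D_π`-group. -/
theorem dpi_alt_absurd (n : ℕ) (hn : 5 ≤ n) (π : Set ℕ)
    (hD : Cfsg.IsDPiGroup π ↥(alternatingGroup (Fin n))) {r s t : ℕ} (hr : r.Prime)
    (hs : s.Prime) (hrπ : r ∈ π) (hsπ : s ∈ π)
    (hrd : r ∣ Nat.card ↥(alternatingGroup (Fin n)))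
    (hsd : s ∣ Nat.card ↥(alternatingGroup (Fin n))) (hrs : r ≠ s) (ht : t.Prime)
    (htd : t ∣ Nat.card ↥(alternatingGroup (Fin n))) (htπ : t ∉ π) : False := by
  have hcard : Fintype.card (Fin n) = n := Fintype.card_fin n
  have hrn : r ≤ n := by
    have := prime_le_of_dvd_card_sub (alternatingGroup (Fin n)) hr hrd
    rwa [hcard] at this
  have hsn : s ≤ n := by
    have := prime_le_of_dvd_card_sub (alternatingGroup (Fin n)) hs hsd
    rwa [hcard] at this
  have htn : t ≤ n := by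
    have := prime_le_of_dvd_card_sub (alternatingGroup (Fin n)) ht htd
    rwa [hcard] at this
  obtain ⟨M, hMhall, hMconj⟩ := hall_of_dpi hD
  have hM' := (isPiHall_sub_iff M).mp hMhall
  have key : HallConcl π (alternatingGroup (Fin n))
      (M.map (alternatingGroup (Fin n)).subtype) := by
    rcases lt_or_gt_of_ne hrs with h | h
    · exact hall_main n (Fin n) hcard π _ _ le_rfl hM' r s hr hs h hrπ hsπ hsn ⟨t, ht, htn, htπ⟩
    · exact hall_main n (Fin n) hcard π _ _ le_rfl hM' s r hs hr h hsπ hrπ hrn ⟨t, ht, htn, htπ⟩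
  have hK : ∀ K' : Subgroup (Perm (Fin n)), K' ≤ alternatingGroup (Fin n) →
      (∀ p : ℕ, p.Prime → p ∣ Nat.card K' → p ∈ π) →
      ∃ g ∈ alternatingGroup (Fin n),
        K' ≤ (M.map (alternatingGroup (Fin n)).subtype).map (MulAut.conj g).toMonoidHom := by
    intro K' hK'A hK'π
    have h1 : Cfsg.IsPiSubgroup π (K'.subgroupOf (alternatingGroup (Fin n))) := by
      intro p hp hd
      rw [Nat.card_congr (Subgroup.subgroupOfEquivOfLe hK'A).toEquiv] at hd
      exact hK'π p hp hd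
    obtain ⟨g, hg⟩ := hMconj _ h1
    exact ⟨g, g.2, sub_conj_lift hK'A hg⟩
  rcases key with ⟨hp, hq, c, hc, hMc⟩ | ⟨h7, hq, c, hc, hMc⟩ | ⟨h8, hq, c, hc, hMc⟩
  · rw [hcard] at hp hq
    set c₃ : Fin n → Bool := fun x => decide (x.val < 3) with hc₃
    have h1 : ∃ x y : Fin n, x ≠ y ∧ c₃ x = true ∧ c₃ y = true :=
      ⟨⟨0, by omega⟩, ⟨1, by omega⟩, by simp [Fin.ext_iff], by simp [hc₃], by simp [hc₃]⟩
    have h0 : ∃ x y : Fin n, x ≠ y ∧ c₃ x = false ∧ c₃ y = false :=
      ⟨⟨3, by omega⟩, ⟨4, by omega⟩, by simp [Fin.ext_iff], by simp [hc₃], by simp [hc₃]⟩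
    obtain ⟨g, hg, hle⟩ := hK (alternatingGroup (Fin n) ⊓ colorStab c₃) inf_le_left
      (fun p hp' hd => by
        have h2 := colorStab_prime_lt c₃ h1 h0 hp'
          (dvd_trans hd (Subgroup.card_dvd_of_le inf_le_right))
        rw [hcard] at h2
        exact (hq p hp' h2.le).mpr h2)
    rw [hMc, ← inf_colorStab_conj hg c (fun x => c (g⁻¹ x))
      (fun x => by rw [perm_inv_apply_self])] at hle
    exact point_stab_absurd c₃ _ h1 h0 (by rw [← hc]; exact card_fiber_comp c g⁻¹ true)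
      (hle.trans inf_le_right)
  · rw [hcard] at h7
    subst h7
    have h2π : 2 ∈ π := (hq 2 Nat.prime_two (by norm_num)).mpr (Or.inl rfl)
    have h3π : 3 ∈ π := (hq 3 Nat.prime_three (by norm_num)).mpr (Or.inr rfl)
    obtain ⟨g, hg, hle⟩ := hK K7 inf_le_left (fun p hp' hd => by
      rcases prime_dvd_two_three hp' (dvd_trans hd K7_card_dvd) with rfl | rfl
      · exact h2π
      · exact h3π)
    rw [hMc, ← inf_colorStab_conj hg c (fun x => c (g⁻¹ x))
      (fun x => by rw [perm_inv_apply_self])] at hle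
    exact K7_absurd _ (by rw [← hc]; exact card_fiber_comp c g⁻¹ true) (hle.trans inf_le_right)
  · rw [hcard] at h8
    subst h8
    have h2π : 2 ∈ π := (hq 2 Nat.prime_two (by norm_num)).mpr (Or.inl rfl)
    have h3π : 3 ∈ π := (hq 3 Nat.prime_three (by norm_num)).mpr (Or.inr rfl)
    obtain ⟨g, hg, hle⟩ := hK K8 inf_le_left (fun p hp' hd => by
      rcases prime_dvd_two_three hp' (dvd_trans hd K8_card_dvd) with rfl | rfl
      · exact h2π
      · exact h3π)
    rw [hMc, ← inf_pairStab_conj hg c (fun x => c (g⁻¹ x))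
      (fun x => by rw [perm_inv_apply_self])] at hle
    exact K8_absurd _ (by rw [← hc]; exact card_fiber_comp c g⁻¹ true) (hle.trans inf_le_right)

end Cfsg.Agent.H43
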