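import Mathlib
import Cfsg.Agent.H59.JzKillDefs
import Cfsg.Agent.H52.SrDefs
import Cfsg.Agent.H36.SrVNG
import Cfsg.Agent.H51.JcNORM
import Cfsg.Agent.Helper55.J48
import Cfsg.Agent.S2948
import Cfsg.Agent.S2950
import Cfsg.Agent.H43.JkAux

/-!
# K-CENT (piece of JZ-KILL, S2951 / S2952): `C_G(u) ≤ N_G(V)` for `1 ≠ u ∈ V`

`kCent (hSR : StStruct) (h46 : St46) (hZ2 : StZ2) : StKCent`, where `St46` is the statement of
S2946 as a closed Prop.
-/

set_option autoImplicit false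
open Cfsg

namespace Cfsg.Agent.H43.Jk

open Cfsg.Agent.H64.Jz Cfsg.Agent.H59.JzK Cfsg.Agent.H52.Sr

universe u

/-- The statement of S2946, as a closed Prop. -/
def St46 : Prop := ∀ {G : Type u} [Group G] [Finite G], Cfsg.IsCharacteristicTwoType G →
  (∀ N : Subgroup G, Cfsg.IsTwoLocal N → Group.IsSolvable ↥N) →
  (∀ S : Sylow 2 G, Subgroup.centralizer (Cfsg.omegaCenterOf (S : Subgroup G) : Set G) ≤
    Subgroup.normalizer ((S : Subgroup G) : Set G)) →
  ∀ (T : Subgroup G), IsPGroup 2 ↥T → T ≠ ⊥ → ∀ (K : Subgroup G), Cfsg.IsJComponent T K →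
  ∀ (Z₀ : Subgroup G), Z₀ = Cfsg.omegaCenterOf (Cfsg.thompsonSubgroupOf 2 T) →
    Nat.card ↥(Z₀ ⊓ Cfsg.wOf K) = 2 ∧
      (Z₀ ⊓ ((K ⊔ Cfsg.thompsonSubgroupOf 2 T) ⊓
        Subgroup.centralizer ((K ⊔ Cfsg.thompsonSubgroupOf 2 T) : Set G))) ⊔
          (Z₀ ⊓ Cfsg.wOf K) = Z₀

/-- K-CENT. -/
theorem kCent (hSR : Cfsg.Agent.H52.Sr.StStruct.{u}) (h46 : St46.{u})
    (hZ2 : Cfsg.Agent.H64.Jz.StZ2.{u}) : Cfsg.Agent.H59.JzK.StKCent.{u} := by
  classical
  intro G _ _ S M K L T' K' L' hR hne u hu hu1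
  obtain ⟨hB, hX, hB', hT'ne⟩ := hR
  have hB0 := hB
  obtain ⟨hZN, hO, hM, hMJ, hT, -, hK, hLmax, hKL⟩ := hB0
  have hZN' := hZN
  obtain ⟨hc2, hsolv, hZ⟩ := hZN'
  have hS2 : IsPGroup 2 ↥(S : Subgroup G) := S.isPGroup'
  have hSne : (S : Subgroup G) ≠ ⊥ := hT.1.2.1
  have hJle : thompsonSubgroupOf 2 (S : Subgroup G) ≤ (S : Subgroup G) :=
    Subgroup.map_subtype_le _
  obtain ⟨L₀, hL₀max, hKL₀, huniq, -, hSyl₀⟩ :=
    Cfsg.Agent.S2950.result hc2 hsolv hZ hO S M hM hMJ (S : Subgroup G) hT K hK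
  have hLL₀ : L = L₀ := huniq L hLmax hKL
  have hSyl : IsSylowTwoIn (S : Subgroup G) L := by rw [hLL₀]; exact hSyl₀
  have hL2 : IsTwoLocal L := hLmax.1
  have hLM : ¬ L ≤ M := fun h => hK.2.1 ((le_sup_left.trans hKL).trans h)
  have h48 := Cfsg.Agent.S2948.result hc2 hsolv hZ hO S M hM hMJ (S : Subgroup G) hT L hL2 hLM
    (S : Subgroup G) hSyl hJle
  have hLS : L ∈ jOvergroups (S : Subgroup G) := h48.2.2.1
  have hKc : IsJComponent (S : Subgroup G) K := hK.1.1
  have hKleL : K ≤ L := le_sup_left.trans hKL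
  have hZcard : Nat.card ↥(omegaCenterOf (S : Subgroup G)) = 2 :=
    hZ2 S L T' K' L' hB' hT'ne
  obtain ⟨hLV, hVexp, hVQ, hQL, hQ2⟩ := Cfsg.Agent.H36.Sr.vng L
  have hQS : pCoreOf 2 L ≤ (S : Subgroup G) :=
    Cfsg.Agent.Helper55.J48.pCoreOf_le_of_sylowIn hSyl
  -- the hypothesis `C_V(S) ∩ C_V(K) = 1`
  have hfix : ∀ v ∈ omegaCenterOf (pCoreOf 2 L),
      v ∈ Subgroup.centralizer ((S : Subgroup G) : Set G) →
      v ∈ Subgroup.centralizer (K : Set G) → v = 1 := by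
    intro v hv hvS hvK
    by_contra hv1
    have hvS' : v ∈ (S : Subgroup G) := hQS (hVQ hv)
    have hvv : v * v = 1 := hVexp v hv
    have hvZ : v ∈ omegaCenterOf (S : Subgroup G) := by
      unfold omegaCenterOf omegaOne
      apply Subgroup.subset_closure
      exact ⟨⟨hvS', hvS⟩, by rw [pow_two]; exact hvv⟩
    have hZel : ∀ z ∈ omegaCenterOf (S : Subgroup G), z = 1 ∨ z = v := by
      intro z hz
      have h2 := hZcard
      rw [Nat.card_eq_two_iff' (1 : ↥(omegaCenterOf (S : Subgroup G)))] at h2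
      obtain ⟨y, hy1, hyu⟩ := h2
      by_cases hz1 : z = 1
      · exact Or.inl hz1
      · right
        have e1 : (⟨z, hz⟩ : ↥(omegaCenterOf (S : Subgroup G))) = y := hyu _ (by
          intro h; exact hz1 (congrArg Subtype.val h))
        have e2 : (⟨v, hvZ⟩ : ↥(omegaCenterOf (S : Subgroup G))) = y := hyu _ (by
          intro h; exact hv1 (congrArg Subtype.val h))
        exact congrArg Subtype.val (e1.trans e2.symm)
    have hKcent : K ≤ Subgroup.centralizer (omegaCenterOf (S : Subgroup G) : Set G) := by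
      intro k hk
      rw [Subgroup.mem_centralizer_iff]
      intro z hz
      rcases hZel z hz with h | h
      · rw [h]; simp
      · rw [h]; exact ((Subgroup.mem_centralizer_iff.mp hvK) k hk).symm
    have hKN : K ≤ Subgroup.normalizer ((S : Subgroup G) : Set G) := hKcent.trans (hZ S)
    have hKS : K ≤ (S : Subgroup G) := by
      have h1 : ⁅K, thompsonSubgroupOf 2 (S : Subgroup G)⁆ ≤ (S : Subgroup G) := by
        rw [Subgroup.commutator_le]
        intro k hk j hj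
        have hjS := hJle hj
        have hkN := hKN hk
        have h3 : k * j * k⁻¹ ∈ (S : Subgroup G) :=
          (Subgroup.mem_normalizer_iff.mp hkN j).mp hjS
        rw [commutatorElement_def]
        exact Subgroup.mul_mem _ h3 (Subgroup.inv_mem _ hjS)
      rw [hKc.2.1] at h1
      exact h1
    have hK2 : IsPGroup 2 ↥K := hS2.to_le hKS
    have hKbot : K = ⊥ := by
      have hcl : Subgroup.closure {g : G | g ∈ K ∧ Odd (orderOf g)} = ⊥ := by
        rw [Subgroup.closure_eq_bot_iff]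
        rintro g ⟨hgK, hgo⟩
        obtain ⟨n, hn⟩ := hK2 ⟨g, hgK⟩
        have hn' : g ^ 2 ^ n = 1 := by simpa using congrArg Subtype.val hn
        have hdvd : orderOf g ∣ 2 ^ n := orderOf_dvd_of_pow_eq_one hn'
        obtain ⟨m, -, hm⟩ := (Nat.dvd_prime_pow Nat.prime_two).mp hdvd
        have h1 : orderOf g = 1 := by
          rw [hm] at hgo ⊢
          cases m with
          | zero => rfl
          | succ m =>
            exact absurd hgo (Nat.not_odd_iff_even.mpr ⟨2 ^ m, by ring⟩)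
        exact orderOf_eq_one_iff.mp h1
      rw [hKc.1] at hcl
      exact hcl
    have h3 := hKc.2.2.1
    rw [hKbot, Subgroup.relIndex_bot_right] at h3
    exact absurd h3 (by norm_num)
  obtain ⟨hsup, hind, hcomp, hperm, hcw, hfree⟩ :=
    hSR hc2 hsolv hZ (S : Subgroup G) hS2 hSne L hLS K hKc hKleL hfix
  -- Lemma D
  have hD : ∀ (i : Orb (S : Subgroup G) K), ∀ a ∈ wOf i.1, ∃ k ∈ L,
      k * a * k⁻¹ ∈ omegaCenterOf (thompsonSubgroupOf 2 (S : Subgroup G)) ∧
      k * a * k⁻¹ ∈ wOf i.1 ∧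
      ∀ j : Orb (S : Subgroup G) K, j ≠ i → ∀ w ∈ wOf j.1, k * w * k⁻¹ = w := by
    intro i a ha
    by_cases ha1 : a = 1
    · refine ⟨1, L.one_mem, ?_, ?_, ?_⟩
      · rw [ha1]; simp
      · rw [ha1]; simp
      · intro j _ w _; simp
    · obtain ⟨hiJ, hiL, hi4⟩ := hcomp i
      have hWne : wOf i.1 ≠ ⊥ := by
        intro h
        rw [h] at hi4
        simp at hi4
      obtain ⟨g, hgK, hgo, w, hw, hmv⟩ := exists_mover i.1 (wOf i.1) hiJ.1 (hfree i) hWne
      have hnorm := Cfsg.Agent.H51.Jc.wOf_norm (K := i.1) (J := i.1) Subgroup.le_normalizer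
      have hgW : ∀ w ∈ wOf i.1, g * w * g⁻¹ ∈ wOf i.1 :=
        fun w hw => hnorm g (Subgroup.mem_sup_left hgK) w hw
      obtain ⟨h46c, -⟩ := h46 hc2 hsolv hZ (S : Subgroup G) hS2 hSne i.1 hiJ _ rfl
      have hex : ∃ w₀ ∈ omegaCenterOf (thompsonSubgroupOf 2 (S : Subgroup G)) ⊓ wOf i.1,
          w₀ ≠ 1 := by
        by_contra hcon
        push Not at hcon
        have hb : omegaCenterOf (thompsonSubgroupOf 2 (S : Subgroup G)) ⊓ wOf i.1 = ⊥ := by
          rw [Subgroup.eq_bot_iff_forall]; exact hcon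
        rw [hb] at h46c
        simp at h46c
      obtain ⟨w₀, hw₀, hw₀1⟩ := hex
      obtain ⟨k, hk, hkeq⟩ := four_trans (wOf i.1) hi4 hiJ.2.2.2.2.2 g hgW hgo hw hmv a ha ha1
        w₀ hw₀.2 hw₀1
      have hkK : k ∈ i.1 := (Subgroup.zpowers_le.mpr hgK) hk
      refine ⟨k, hiL hkK, by rw [hkeq]; exact hw₀.1, by rw [hkeq]; exact hw₀.2, ?_⟩
      intro j hji w hw
      have h1 := hcw j i hji hw
      have h2 := (Subgroup.mem_centralizer_iff.mp h1) k hkK
      rw [h2]; group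
  have hVab : ∀ a ∈ omegaCenterOf (pCoreOf 2 L), ∀ b ∈ omegaCenterOf (pCoreOf 2 L),
      a * b = b * a := by
    intro a ha b hb
    have h1 := (Cfsg.Agent.H51.Jc.omegaCenterOf_le_inf (pCoreOf 2 L) ha).2
    have h2 := (Cfsg.Agent.H51.Jc.omegaCenterOf_le_inf (pCoreOf 2 L) hb).1
    exact ((Subgroup.mem_centralizer_iff.mp h1) b h2).symm
  have hWV : ∀ i : Orb (S : Subgroup G) K, wOf i.1 ≤ omegaCenterOf (pCoreOf 2 L) := by
    intro i
    rw [← hsup]
    exact le_iSup (fun i : Orb (S : Subgroup G) K => wOf i.1) i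
  have hind2 : ∀ s : Finset (Orb (S : Subgroup G) K), ∀ x ∈ ⨆ i ∈ s, wOf i.1, ∃ l ∈ L,
      l * x * l⁻¹ ∈ omegaCenterOf (thompsonSubgroupOf 2 (S : Subgroup G)) ∧
      ∀ j : Orb (S : Subgroup G) K, j ∉ s → ∀ w ∈ wOf j.1, l * w * l⁻¹ = w := by
    intro s
    induction s using Finset.induction_on with
    | empty =>
      intro x hx
      simp at hx
      refine ⟨1, L.one_mem, ?_, ?_⟩
      · rw [hx]; simp
      · intro j _ w _; simp
    | insert i s his ih =>
      intro x hx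
      rw [Finset.iSup_insert] at hx
      have hsV : (⨆ j ∈ s, wOf j.1) ≤ omegaCenterOf (pCoreOf 2 L) :=
        iSup₂_le (fun j _ => hWV j)
      have hcomm : ∀ a ∈ wOf i.1, ∀ b ∈ ⨆ j ∈ s, wOf j.1, a * b = b * a :=
        fun a ha b hb => hVab a (hWV i ha) b (hsV hb)
      obtain ⟨a, ha, b, hb, rfl⟩ := mem_sup_comm _ _ hcomm x hx
      obtain ⟨k, hkL, hkZ, hkW, hkfix⟩ := hD i a ha
      have hle : (⨆ j ∈ s, wOf j.1) ≤ Subgroup.centralizer ({k} : Set G) := by
        refine iSup₂_le (fun j hj w hw => ?_)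
        rw [Subgroup.mem_centralizer_iff]
        intro h hh
        rw [Set.mem_singleton_iff.mp hh]
        have hji : j ≠ i := by rintro rfl; exact his hj
        have h5 := hkfix j hji w hw
        calc k * w = (k * w * k⁻¹) * k := by group
          _ = w * k := by rw [h5]
      have hkb : k * b * k⁻¹ = b := by
        have h5 := (Subgroup.mem_centralizer_iff.mp (hle hb)) k rfl
        rw [h5]; group
      obtain ⟨l', hl'L, hl'Z, hl'fix⟩ := ih b hb
      refine ⟨l' * k, L.mul_mem hl'L hkL, ?_, ?_⟩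
      · have e : l' * k * (a * b) * (l' * k)⁻¹ =
            (l' * (k * a * k⁻¹) * l'⁻¹) * (l' * (k * b * k⁻¹) * l'⁻¹) := by group
        rw [e, hkb, hl'fix i his _ hkW]
        exact Subgroup.mul_mem _ hkZ hl'Z
      · intro j hj w hw
        rw [Finset.mem_insert, not_or] at hj
        have e : l' * k * w * (l' * k)⁻¹ = l' * (k * w * k⁻¹) * l'⁻¹ := by group
        rw [e, hkfix j hj.1 w hw, hl'fix j hj.2 w hw]
  haveI : Fintype (Orb (S : Subgroup G) K) := Fintype.ofFinite _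
  have huV : u ∈ ⨆ i ∈ (Finset.univ : Finset (Orb (S : Subgroup G) K)), wOf i.1 := by
    simp only [Finset.mem_univ, iSup_pos]
    rw [hsup]; exact hu
  obtain ⟨l, hlL, hlZ, -⟩ := hind2 Finset.univ u huV
  -- the 2-local `N_G(⟨u'⟩)`
  have hu'1 : l * u * l⁻¹ ≠ 1 := by
    intro h
    apply hu1
    have h2 : l * u * l⁻¹ = l * 1 * l⁻¹ := by rw [h]; group
    exact mul_left_cancel (mul_right_cancel h2)
  have hu'J := Cfsg.Agent.H51.Jc.omegaCenterOf_le_inf _ hlZ
  have hu'S : l * u * l⁻¹ ∈ (S : Subgroup G) := hJle hu'J.1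
  have hX2 : IsTwoLocal (Subgroup.normalizer (Subgroup.zpowers (l * u * l⁻¹) : Set G)) :=
    ⟨Subgroup.zpowers (l * u * l⁻¹), hS2.to_le (Subgroup.zpowers_le.mpr hu'S),
      Subgroup.zpowers_ne_bot.mpr hu'1, rfl⟩
  have hCX : Subgroup.centralizer ({l * u * l⁻¹} : Set G) ≤
      Subgroup.normalizer (Subgroup.zpowers (l * u * l⁻¹) : Set G) := by
    refine le_trans ?_ (Subgroup.centralizer_le_normalizer _)
    intro x hx
    rw [Subgroup.mem_centralizer_iff]
    intro h hh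
    have hxu : Commute (l * u * l⁻¹) x := (Subgroup.mem_centralizer_iff.mp hx) _ rfl
    obtain ⟨n, rfl⟩ := Subgroup.mem_zpowers_iff.mp hh
    exact (hxu.zpow_left n).eq
  have hJX : thompsonSubgroupOf 2 (S : Subgroup G) ≤
      Subgroup.normalizer (Subgroup.zpowers (l * u * l⁻¹) : Set G) := by
    intro j hj
    apply hCX
    rw [Subgroup.mem_centralizer_iff]
    intro h hh
    rw [Set.mem_singleton_iff.mp hh]
    exact ((Subgroup.mem_centralizer_iff.mp hu'J.2) j hj).symm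
  have hXL := hX _ hX2 hJX
  intro x hx
  apply hLV
  have hxu : u * x = x * u := (Subgroup.mem_centralizer_iff.mp hx) u rfl
  have h1 : l * x * l⁻¹ ∈ Subgroup.centralizer ({l * u * l⁻¹} : Set G) := by
    rw [Subgroup.mem_centralizer_iff]
    intro h hh
    rw [Set.mem_singleton_iff.mp hh]
    calc l * u * l⁻¹ * (l * x * l⁻¹) = l * (u * x) * l⁻¹ := by group
      _ = l * (x * u) * l⁻¹ := by rw [hxu]
      _ = l * x * l⁻¹ * (l * u * l⁻¹) := by group
  have h2 : l * x * l⁻¹ ∈ L := hXL (hCX h1)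
  have h3 : x = l⁻¹ * (l * x * l⁻¹) * l := by group
  rw [h3]
  exact L.mul_mem (L.mul_mem (L.inv_mem hlL) h2) hlL

example (hSR : Cfsg.Agent.H52.Sr.StStruct.{u}) (h46 : St46.{u})
    (hZ2 : Cfsg.Agent.H64.Jz.StZ2.{u}) : Cfsg.Agent.H59.JzK.StKCent.{u} :=
  kCent hSR h46 hZ2

end Cfsg.Agent.H43.Jk

#print axioms Cfsg.Agent.H43.Jk.kCent
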