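import Mathlib
import Cfsg.Agent.H52.JxDefs
import Cfsg.Agent.H43.JyVFacts
import Cfsg.Agent.H82.JvCaseA
import Cfsg.Agent.H97.JyPFacts
import Cfsg.Agent.H59.JyGoodB
import Cfsg.Agent.H54.CharP2
import Cfsg.Agent.H40.JxPF

/-!
# S2953, JY-KILL2, case `V ≤ Q₁` (JX-KA), directly

`Cfsg.Agent.H43.Jx.ka : Cfsg.Agent.H52.Jx.StKA`: in the residual situation the case
`Ω₁Z(O₂(L)) ≤ O₂(K' ⊔ T')` is impossible.  Glue of `Cfsg.Agent.H43.Jy.vfacts` (the four-group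
`V`, its normalizer `L`, the TI property), `Cfsg.Agent.H97.Jy.pfacts` (the structure of
`K' ⊔ T'`) and the abstract count `Cfsg.Agent.H82.Jv.caseA`.
-/

set_option autoImplicit false
open Cfsg

namespace Cfsg.Agent.H43.Jx

open Cfsg.Agent.H64.Jz Cfsg.Agent.H64.Jy
open scoped commutatorElement

universe u

/-- Two involutions with a product of order at most 2 commute. -/
theorem comm_of_sq {G : Type u} [Group G] {x y : G} (hx : x * x = 1) (hy : y * y = 1)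
    (hxy : (x * y) * (x * y) = 1) : x * y = y * x := by
  have h1 : x * y = (x * y)⁻¹ := eq_inv_of_mul_eq_one_left hxy
  rw [h1, mul_inv_rev, inv_eq_of_mul_eq_one_left hx, inv_eq_of_mul_eq_one_left hy]

/-- **JX-KA.** -/
theorem ka : Cfsg.Agent.H52.Jx.StKA.{u} := by
  intro G _ _ S M K L T' K' L' hR hVQ
  classical
  obtain ⟨hB, hNS, hB', hne⟩ := hR
  obtain ⟨-, -, -, hV4, hVe, hVS, hNV, hSL, -, -, -, -, hTI⟩ :=
    Cfsg.Agent.H43.Jy.vfacts S M K L T' K' L' hB hNS hB' hne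
  obtain ⟨hQT, hQne, hPQ⟩ := Cfsg.Agent.H40.Jx.pf S L T' K' L' hB'
  have hTK : T' ≤ Subgroup.normalizer (K' : Set G) :=
    normFinal S L T' K' L' hB' (stMain S L T' K' L' hB')
  have hB0 := hB'
  obtain ⟨hZN, hO, hM, hMJ, hT, hTS, hK, hLmax, hKL⟩ := hB0
  obtain ⟨hc2, hsolv, hZ⟩ := hZN
  obtain ⟨L₀, -, -, huniq, hsn₀, hSyl₀⟩ :=
    Cfsg.Agent.S2950.result hc2 hsolv hZ hO S L hM hMJ T' hT K' hK
  have hLL₀ : L' = L₀ := huniq L' hLmax hKL
  have hSyl : IsSylowTwoIn T' L' := by rw [hLL₀]; exact hSyl₀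
  have hsn : (K'.subgroupOf L').IsSubnormal := by rw [hLL₀]; exact hsn₀
  have hKL' : K' ≤ L' := le_sup_left.trans hKL
  have hQT0 : pCoreOf 2 L' ≤ T' := Cfsg.Agent.Helper55.J48.pCoreOf_le_of_sylowIn hSyl
  have hOT : pCoreOf 2 K' ≤ T' := (Cfsg.Agent.H54.Uq.o2sn K' L' hKL' hsn).trans hQT0
  have hOK : pCoreOf 2 K' ≤ K' := Cfsg.Agent.H51.pCoreOf_le 2 K'
  have hT2 : IsPGroup 2 ↥T' := hSyl.2.1
  obtain ⟨hK0, hKnL, -⟩ := hK
  obtain ⟨hgen, hcomm, hidx3, -, -, -⟩ := hK0.1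
  have hOnK : K' ≤ Subgroup.normalizer (pCoreOf 2 K' : Set G) :=
    Cfsg.Agent.H51.le_normalizer_pCoreOf 2 K'
  have hOnT : T' ≤ Subgroup.normalizer (pCoreOf 2 K' : Set G) :=
    hTK.trans (Cfsg.Agent.H54.normalizer_le_normalizer_pCoreOf K')
  obtain ⟨D, k, hDT, hOD, hKD, hTD, hidx2, hinv, -, -, hkK, hkO, hk3, hKform, hdich⟩ :=
    Cfsg.Agent.H97.Jy.pfacts K' T' (pCoreOf 2 K') hT2 hTK hOK hOT hidx3 hOnK hOnT hgen
  have hT'L : T' ≤ L := hTS.trans hSL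
  have hKQ : ¬ K' ≤ pCoreOf 2 (K' ⊔ T') := fun h => hKnL (h.trans (hQT.trans hT'L))
  -- `O₂(K' ⊔ T') = D`
  have hPD : K' ⊔ T' ≤ Subgroup.normalizer (D : Set G) := sup_le hKD hTD
  have hDQ : D ≤ pCoreOf 2 (K' ⊔ T') :=
    Cfsg.Agent.H51.le_pCoreOf 2 (hDT.trans le_sup_right) hPD (hT2.to_le hDT)
  have hQD : pCoreOf 2 (K' ⊔ T') ≤ D := by
    rcases hdich (pCoreOf 2 (K' ⊔ T')) (Cfsg.Agent.H51.pCoreOf_le 2 (K' ⊔ T')) hPQ with h | h
    · exact h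
    · exact absurd h hKQ
  have hEq : pCoreOf 2 (K' ⊔ T') = D := le_antisymm hQD hDQ
  -- `k ∉ L`
  have hkL : k ∉ L := by
    intro hk
    apply hKnL
    intro g hg
    obtain ⟨o, ho, i, rfl⟩ := hKform g hg
    exact L.mul_mem (hT'L (hOT ho)) (L.pow_mem hk i)
  -- `J(T') ⊄ O₂(K' ⊔ T')`
  have hJ : ¬ thompsonSubgroupOf 2 T' ≤ pCoreOf 2 (K' ⊔ T') := by
    intro hJ
    have hKQ' : ⁅K', thompsonSubgroupOf 2 T'⁆ ≤ pCoreOf 2 (K' ⊔ T') := by
      rw [Subgroup.commutator_le]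
      intro g1 hg1 g2 hg2
      have hg2Q := hJ hg2
      have hnn : g1 ∈ Subgroup.normalizer (pCoreOf 2 (K' ⊔ T') : Set G) := hPQ ((le_sup_left : K' ≤ K' ⊔ T') hg1)
      have hc : g1 * g2 * g1⁻¹ ∈ pCoreOf 2 (K' ⊔ T') :=
        (Subgroup.mem_normalizer_iff.mp hnn g2).mp hg2Q
      have h2 : g1 * g2 * g1⁻¹ * g2⁻¹ ∈ pCoreOf 2 (K' ⊔ T') :=
        Subgroup.mul_mem _ hc (Subgroup.inv_mem _ hg2Q)
      simpa [commutatorElement_def] using h2
    exact hKQ (hcomm.symm.le.trans hKQ')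
  have hexA : ∃ A0 ∈ maxElementaryAbelianSubgroups 2 ↥T',
      ¬ A0.map T'.subtype ≤ pCoreOf 2 (K' ⊔ T') := by
    by_contra hcon
    apply hJ
    unfold thompsonSubgroupOf thompsonSubgroup
    rw [Subgroup.map_le_iff_le_comap]
    apply sSup_le
    intro A0 hA0
    by_contra h
    exact hcon ⟨A0, hA0, fun h' => h (Subgroup.map_le_iff_le_comap.mp h')⟩
  obtain ⟨A0, hA0, hA0Q⟩ := hexA
  obtain ⟨a, haA, haQ⟩ := SetLike.not_le_iff_exists.mp hA0Q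
  have hAT : A0.map T'.subtype ≤ T' := Subgroup.map_subtype_le _
  have hAe : ∀ x ∈ A0.map T'.subtype, x * x = 1 := by
    rintro _ ⟨y, hy, rfl⟩
    have h1 : y ^ 2 = 1 := hA0.1.2 y hy
    have h2 : ((y ^ 2 : ↥T') : G) = 1 := by rw [h1]; rfl
    simpa [pow_two] using h2
  have hmax : ∀ B : Subgroup G, B ≤ T' → (∀ x ∈ B, x * x = 1) →
      Nat.card ↥B ≤ Nat.card ↥(A0.map T'.subtype) := by
    intro B hBT hBe
    have hBel : IsElementaryAbelian 2 (B.subgroupOf T') := by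
      refine ⟨⟨⟨fun x y => ?_⟩⟩, ?_⟩
      · apply Subtype.ext
        apply Subtype.ext
        exact comm_of_sq (hBe _ (Subgroup.mem_subgroupOf.mp x.2))
          (hBe _ (Subgroup.mem_subgroupOf.mp y.2))
          (hBe _ (B.mul_mem (Subgroup.mem_subgroupOf.mp x.2) (Subgroup.mem_subgroupOf.mp y.2)))
      · intro y hy
        have h1 := hBe _ (Subgroup.mem_subgroupOf.mp hy)
        apply Subtype.ext
        simpa [pow_two] using h1
    have h1 := hA0.2 (B.subgroupOf T') hBel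
    have h2 : Nat.card ↥(B.subgroupOf T') = Nat.card ↥B :=
      Nat.card_congr (Subgroup.subgroupOfEquivOfLe hBT).toEquiv
    have h3 : Nat.card ↥(A0.map T'.subtype) = Nat.card ↥A0 :=
      Subgroup.card_map_of_injective T'.subtype_injective
    omega
  have haD : a ∉ D := by rw [← hEq]; exact haQ
  refine Cfsg.Agent.H82.Jv.caseA T' (pCoreOf 2 (K' ⊔ T')) (omegaCenterOf (pCoreOf 2 L))
    (A0.map T'.subtype) k a hQT hVQ hV4 hVe ?_ ?_ (hPQ ((le_sup_left : K' ≤ K' ⊔ T') hkK)) hk3 ?_ hAT hAe hmax haA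
    ?_ ?_ ?_
  · intro g hg
    rw [hNV]; exact hTI g hg
  · rw [hNV]; exact hQT.trans hT'L
  · rw [hNV]; exact hkL
  · rw [hNV]; exact hT'L (hAT haA)
  · rw [hEq]; exact hOD (hinv a (hAT haA) haD k hkK)
  · intro t ht
    rw [hEq]
    by_cases htD : t ∈ D
    · exact Or.inl htD
    · exact Or.inr (hidx2 t (hAT ht) a (hAT haA) htD haD)

example : Cfsg.Agent.H52.Jx.StKA.{u} := ka

end Cfsg.Agent.H43.Jx

#print axioms Cfsg.Agent.H43.Jx.ka
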