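import Mathlib
import Cfsg.Agent.H86.NdDefs

/-!
# ND-ARBACKM (helper43, for helper86's S5989/S5991 project)

Pure arithmetic: the right-hand side of S5991 for odd `r ≠ p` gives a shape `(j, e)` for every
admissible number `A` of blocks (minus space).
-/

set_option autoImplicit false

namespace Cfsg.Agent.H43.Nd

open Cfsg.Agent.H86.Nd

/-- `c = (if Even i then i else 2 * i)` is even and positive when `0 < i`. -/
theorem cEvenPos {i c : ℕ} (hi : 0 < i) (hc : c = (if Even i then i else 2 * i)) :
    Even c ∧ 0 < c := by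
  by_cases h : Even i
  · rw [if_pos h] at hc; subst hc; exact ⟨h, hi⟩
  · rw [if_neg h] at hc; subst hc; exact ⟨even_two_mul i, by omega⟩

/-- An odd number has a positive remainder modulo a positive even number. -/
theorem oddModPos {m c : ℕ} (hm : Odd m) (hc : Even c) : 0 < m % c := by
  rcases Nat.eq_zero_or_pos (m % c) with h | h
  · exfalso
    have hd : c ∣ m := Nat.dvd_of_mod_eq_zero h
    have h2 : 2 ∣ m := (even_iff_two_dvd.mp hc).trans hd
    rcases hm with ⟨k, hk⟩
    omega
  · exact h

theorem arBackM : StArBackM := by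
  intro d m i c A hi hc hm hmd hR hA hadm
  obtain ⟨hce, hcp⟩ := cEvenPos hi hc
  have hmpos := oddModPos hm hce
  have hmdiv : c * (m / c) + m % c = m := Nat.div_add_mod m c
  have hddiv : c * ((2 * d) / c) + (2 * d) % c = 2 * d := Nat.div_add_mod (2 * d) c
  have hmlt : m % c < c := Nat.mod_lt _ hcp
  have hdlt : (2 * d) % c < c := Nat.mod_lt _ hcp
  have hAs : A ≤ (2 * d) / c := by
    rw [Nat.le_div_iff_mul_le hcp]; rw [Nat.mul_comm]; exact hA
  have hcAs : c * A ≤ c * ((2 * d) / c) := Nat.mul_le_mul_left c hAs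
  by_cases hj : A ≤ m / c
  · -- j = A
    have hcA : c * A ≤ c * (m / c) := Nat.mul_le_mul_left c hj
    refine ⟨A, m - c * A, le_rfl, ?_, ?_, ?_⟩
    · omega
    · omega
    · omega
  · -- j = m / c < A
    have hj' : m / c + 1 ≤ A := by omega
    refine ⟨m / c, m % c, by omega, hmpos, ?_, hmdiv⟩
    -- need m % c + 1 ≤ 2 * d - c * A
    have key : (2 * d) % c = 0 → A < (2 * d) / c → m % c + 1 ≤ 2 * d - c * A := by
      intro h0 hlt
      have h1 : c * (A + 1) ≤ c * ((2 * d) / c) := Nat.mul_le_mul_left c hlt
      have h2 : c * (A + 1) = c * A + c := by ring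
      omega
    have key2 : m % c < (2 * d) % c → m % c + 1 ≤ 2 * d - c * A := by
      intro h; omega
    rcases hR with ⟨hio, h | ⟨_, _, h⟩⟩ | ⟨hie, ⟨h0, hev⟩ | ⟨_, _, _, h⟩⟩
    · -- Odd i, (2d) % c = 0
      apply key h
      rcases Nat.lt_or_ge A ((2 * d) / c) with hlt | hge
      · exact hlt
      · exfalso
        have hAeq : A = (2 * d) / c := le_antisymm hAs hge
        have : c * A = 2 * d := by rw [hAeq]; omega
        exact hadm this (Or.inl hio)
    · exact key2 h
    · -- Even i, (2d) % c = 0, Even ((2d)/i)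
      have hci : c = i := by rw [hc, if_pos hie]
      apply key h0
      rcases Nat.lt_or_ge A ((2 * d) / c) with hlt | hge
      · exact hlt
      · exfalso
        have hAeq : A = (2 * d) / c := le_antisymm hAs hge
        have : c * A = 2 * d := by rw [hAeq]; omega
        refine hadm this (Or.inr ?_)
        rw [hAeq, hci]; exact hev
    · exact key2 h

example : StArBackM := arBackM

end Cfsg.Agent.H43.Nd
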