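import Mathlib
import Cfsg.Agent.H86.NdDefs
import Cfsg.Agent.H43.NdArBackM

/-!
# ND-ARFWDM (helper43, for helper86's S5989/S5991 project)

Pure arithmetic: if the right-hand side of S5991 (odd `r ≠ p`) fails, some admissible `A ≥ 1`
admits no shape, or `m < c` and (`2 d < c` or some admissible `A ≥ 1` has
`m < 2 d - c A < c`) (minus space).
-/

set_option autoImplicit false

namespace Cfsg.Agent.H43.Nd

open Cfsg.Agent.H86.Nd

theorem arFwdM : StArFwdM := by
  intro d m i c hi hc hm hmd hd4 hR
  obtain ⟨hce, hcp⟩ := cEvenPos hi hc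
  have hmpos := oddModPos hm hce
  have hmdiv : c * (m / c) + m % c = m := Nat.div_add_mod m c
  have hddiv : c * ((2 * d) / c) + (2 * d) % c = 2 * d := Nat.div_add_mod (2 * d) c
  have hmlt : m % c < c := Nat.mod_lt _ hcp
  have hdlt : (2 * d) % c < c := Nat.mod_lt _ hcp
  rcases Nat.lt_or_ge (2 * d) c with hbig | hsmall
  · -- c > 2 d
    exact Or.inr ⟨by omega, Or.inl hbig⟩
  · -- c ≤ 2 d, s ≥ 1
    have hs1 : 1 ≤ (2 * d) / c := by
      rw [Nat.le_div_iff_mul_le hcp]; omega
    rcases Nat.eq_zero_or_pos ((2 * d) % c) with h0 | hpos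
    · -- k₀ = 0: A := s is admissible (Even i ∧ Odd s), fixed space 0
      left
      refine ⟨(2 * d) / c, hs1, by omega, ?_, ?_⟩
      · intro _ hor
        apply hR
        rcases hor with hio | hev
        · exact Or.inl ⟨hio, Or.inl h0⟩
        · by_cases hie : Even i
          · have hci : c = i := by rw [hc, if_pos hie]
            refine Or.inr ⟨hie, Or.inl ⟨h0, ?_⟩⟩
            rw [← hci]; exact hev
          · exact Or.inl ⟨Nat.not_even_iff_odd.mp hie, Or.inl h0⟩
      · intro j e _ he _
        omega
    · -- k₀ > 0: A := s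
      have hnot : ¬ (c ≤ m ∧ m % c < (2 * d) % c) := by
        rintro ⟨h1, h2⟩
        apply hR
        by_cases hie : Even i
        · have hci : c = i := by rw [hc, if_pos hie]
          exact Or.inr ⟨hie, Or.inr ⟨hpos, by omega, hmpos, h2⟩⟩
        · exact Or.inl ⟨Nat.not_even_iff_odd.mp hie, Or.inr ⟨h1, hmpos, h2⟩⟩
      rcases Nat.lt_or_ge (m % c) ((2 * d) % c) with hlt | hge
      · -- m % c < k₀, hence m < c
        have hmc : m < c := by
          by_contra hcon
          exact hnot ⟨by omega, hlt⟩
        right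
        refine ⟨hmc, Or.inr ⟨(2 * d) / c, hs1, by omega, ?_, by omega, ?_⟩⟩
        · intro h; omega
        · have : m % c = m := Nat.mod_eq_of_lt hmc
          omega
      · -- m % c ≥ k₀: no shape
        left
        refine ⟨(2 * d) / c, hs1, by omega, ?_, ?_⟩
        · intro h; omega
        · intro j e _ he hje
          have hek : e < (2 * d) % c := by omega
          have hec : e < c := by omega
          have hmod : m % c = e := by
            rw [← hje, Nat.mul_add_mod, Nat.mod_eq_of_lt hec]
          omega

example : StArFwdM := arFwdM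

end Cfsg.Agent.H43.Nd
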