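import Mathlib
import Cfsg.Agent.H86.NdDefs
import Cfsg.Agent.H95.OhFin

/-!
# ND-FWD (helper43, for helper86's S5989/S5991 project)

The shape of an invariant nondegenerate subspace of ODD dimension in a space of even dimension:
`dim W = c j + e`, `e = dim (W ∩ C_V(T)) < dim C_V(T)`.  From helper95's closed `fin_fwd` and
`fin_omodc`, plus parity (`c` is even).
-/

set_option autoImplicit false

namespace Cfsg.Agent.H43.Nd

open Cfsg.Agent.H45 Cfsg.Agent.H42.Spd Cfsg.Agent.H42.Ti Cfsg.Agent.H14.Ot Cfsg.Agent.H95.Oh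
  Cfsg.Agent.H86.Ev2 Cfsg.Agent.H86.Nd Module

universe u v

theorem ccEvenNd (F : Type u) [Fintype F] (r : ℕ) : Even (cc F r) := by
  unfold cc
  split_ifs with h
  · exact h
  · exact even_two_mul _

theorem ndFwd : StNdFwd.{u, v} := by
  intro F _ _ V _ _ _ r B T hO hV W hW hnd hodd
  obtain ⟨j, hj1, hj2, -⟩ := Cfsg.Agent.H95.Oh.fin_fwd.{u, v} F V r B T hO W hW hnd
  obtain ⟨s, hs⟩ := Cfsg.Agent.H95.Oh.fin_omodc.{u, v} F V r B T hO
  have hc : Even (cc F r) := ccEvenNd F r
  have hmono : kk T W ≤ kk T ⊤ := by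
    unfold kk
    exact Submodule.finrank_mono (inf_le_inf_right _ le_top)
  refine ⟨j, by omega, hj2, ?_⟩
  -- parity
  have hkW : Odd (kk T W) := by
    rw [hj1] at hodd
    rcases Nat.even_or_odd (kk T W) with he | ho
    · exfalso
      have : Even (kk T W + cc F r * j) := he.add (hc.mul_right j)
      exact (Nat.not_even_iff_odd.mpr hodd) this
    · exact ho
  have hkT : Even (kk T (⊤ : Submodule F V)) := by
    rw [hs] at hV
    rcases Nat.even_or_odd (kk T (⊤ : Submodule F V)) with he | ho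
    · exact he
    · exfalso
      have : Odd (kk T (⊤ : Submodule F V) + cc F r * s) := ho.add_even (hc.mul_right s)
      exact (Nat.not_even_iff_odd.mpr this) hV
  rcases hkW with ⟨a, ha⟩
  rcases hkT with ⟨b, hb⟩
  omega

example : StNdFwd.{u, v} := ndFwd

end Cfsg.Agent.H43.Nd
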