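import Cfsg.Agent.H46.OSDefs

/-!
# OS-DCOMM (helper46's team project S2159): diagonal automorphisms commute
-/

set_option autoImplicit false

namespace Cfsg.Agent.H43.OS

open Cfsg Cfsg.Lie Cfsg.Agent.H46.OS
open scoped MatrixGroups

universe u

/-- The diagonal matrices of two functions on the roots commute. -/
theorem charDiag_comm {F : Type*} [Field F] (D : ChevalleyDatum) (a b : ℕ → Fˣ) :
    D.charDiag F a * D.charDiag F b = D.charDiag F b * D.charDiag F a := by
  unfold ChevalleyDatum.charDiag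
  rw [Matrix.diagonal_mul_diagonal, Matrix.diagonal_mul_diagonal]
  congr 1
  funext i
  exact mul_comm _ _

/-- **OS-DCOMM**. -/
theorem dComm : StDComm.{u} := by
  intro F _ D d d' hd hd'
  obtain ⟨χ, -, hd⟩ := hd
  obtain ⟨χ', -, hd'⟩ := hd'
  apply MulEquiv.ext
  intro y
  show d (d' y) = d' (d y)
  apply Subtype.ext
  apply Units.ext
  rw [hd, hd', hd', hd]
  have h1 := charDiag_comm D χ χ'
  have h2 := charDiag_comm D (fun r => (χ' r)⁻¹) (fun r => (χ r)⁻¹)
  calc D.charDiag F χ * (D.charDiag F χ' * ((y : GL D.Idx F) : Matrix D.Idx D.Idx F) *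
          D.charDiag F (fun r => (χ' r)⁻¹)) * D.charDiag F (fun r => (χ r)⁻¹)
      = (D.charDiag F χ * D.charDiag F χ') * ((y : GL D.Idx F) : Matrix D.Idx D.Idx F) *
          (D.charDiag F (fun r => (χ' r)⁻¹) * D.charDiag F (fun r => (χ r)⁻¹)) := by
        simp only [Matrix.mul_assoc]
    _ = (D.charDiag F χ' * D.charDiag F χ) * ((y : GL D.Idx F) : Matrix D.Idx D.Idx F) *
          (D.charDiag F (fun r => (χ r)⁻¹) * D.charDiag F (fun r => (χ' r)⁻¹)) := by
        rw [h1, h2]
    _ = D.charDiag F χ' * (D.charDiag F χ * ((y : GL D.Idx F) : Matrix D.Idx D.Idx F) *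
          D.charDiag F (fun r => (χ r)⁻¹)) * D.charDiag F (fun r => (χ' r)⁻¹) := by
        simp only [Matrix.mul_assoc]

example : Cfsg.Agent.H46.OS.StDComm.{u} := dComm

end Cfsg.Agent.H43.OS
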