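import Cfsg.Agent.H46.OSDefs
import Cfsg.Agent.H23.Gens

/-!
# OS-FCYC (helper46's team project S2159): the field automorphisms of a Chevalley group over a finite
field lie in one cyclic group
-/

set_option autoImplicit false
set_option linter.style.haveILetI false

namespace Cfsg.Agent.H43.OS

open Cfsg Cfsg.Lie Cfsg.Agent.H23 Cfsg.Agent.H23.Stb Cfsg.Agent.H46.OS
open scoped MatrixGroups

universe u

/-- Every automorphism of a finite field is an iterate of one of them (the Frobenius map). -/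
theorem exists_gen (F : Type u) [Field F] [Finite F] :
    ∃ σ0 : F ≃+* F, ∀ σ : F ≃+* F, ∃ n : ℕ, ∀ t : F, σ t = (⇑σ0)^[n] t := by
  obtain ⟨p, hp⟩ := CharP.exists F
  haveI : Fact p.Prime := ⟨CharP.char_is_prime F p⟩
  letI := ZMod.algebra F p
  refine ⟨(FiniteField.frobeniusAlgEquivOfAlgebraic (ZMod p) F).toRingEquiv, fun σ => ?_⟩
  let σ' : F ≃ₐ[ZMod p] F := AlgEquiv.ofRingEquiv (f := σ) (fun x => by
    have h : (σ : F →+* F).comp (algebraMap (ZMod p) F) = algebraMap (ZMod p) F :=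
      Subsingleton.elim _ _
    exact congrArg (fun g : ZMod p →+* F => g x) h)
  obtain ⟨n, hn⟩ := (FiniteField.bijective_frobeniusAlgEquivOfAlgebraic_pow (ZMod p) F).2 σ'
  refine ⟨n.1, fun t => ?_⟩
  have h1 : (FiniteField.frobeniusAlgEquivOfAlgebraic (ZMod p) F ^ n.1) t = σ' t :=
    congrArg (fun e : F ≃ₐ[ZMod p] F => e t) hn
  rw [AlgEquiv.coe_pow] at h1
  exact h1.symm

/-- **OS-FCYC**. -/
theorem fCyc (h : StFEx.{u}) : StFCyc.{u} := by
  intro F _ _ D hD
  obtain ⟨z, η, w, rT, par, dep, hP⟩ := Cfsg.Agent.H23.packF_all (F := F) D hD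
  have hS := hP.packB.sem
  have hN := hP.packB.semN
  have hT := hP.packB.tab
  obtain ⟨σ0, hσ0⟩ := exists_gen F
  obtain ⟨φ0, hφ0⟩ := h F D hD σ0
  refine ⟨φ0, fun f hf => ?_⟩
  obtain ⟨σ, hσ⟩ := hf
  obtain ⟨n, hn⟩ := hσ0 σ
  have hpow : ∀ (m : ℕ) (g : ↥(D.group F)) (r : ℕ) (t : F), r < D.nroots →
      ((g : GL D.Idx F) : Matrix D.Idx D.Idx F) = D.x F r t →
      (((φ0 ^ m) g : GL D.Idx F) : Matrix D.Idx D.Idx F) = D.x F r ((⇑σ0)^[m] t) := by
    intro m
    induction m with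
    | zero =>
      intro g r t hr hg
      rw [pow_zero, MulAut.one_apply, Function.iterate_zero, id]
      exact hg
    | succ m ih =>
      intro g r t hr hg
      rw [pow_succ', MulAut.mul_apply, hφ0 _ r _ hr (ih g r t hr hg), Function.iterate_succ_apply']
  have key : f.toMonoidHom = (φ0 ^ n).toMonoidHom := by
    apply Cfsg.Agent.H23.hom_ext_fund hS hN hT
    intro k i t hi hk
    show f k = (φ0 ^ n) k
    apply Subtype.ext
    apply Units.ext
    rcases hk with hk | hk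
    · rw [hσ k _ t (hT.simple_lt i hi) hk, hpow n k _ t (hT.simple_lt i hi) hk, hn]
    · rw [hσ k _ t (hT.neg_lt _ (hT.simple_lt i hi)) hk,
        hpow n k _ t (hT.neg_lt _ (hT.simple_lt i hi)) hk, hn]
  have hf : f = φ0 ^ n := MulEquiv.ext (fun y => DFunLike.congr_fun key y)
  rw [hf]
  exact Subgroup.pow_mem _ (Subgroup.mem_zpowers φ0) n

example (h : Cfsg.Agent.H46.OS.StFEx.{u}) : Cfsg.Agent.H46.OS.StFCyc.{u} := fCyc h

end Cfsg.Agent.H43.OS
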