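import Cfsg.Agent.H46.OSDefs
import Cfsg.Agent.H23.Gens
import Cfsg.Agent.H70.StbField

/-!
# OS-FEX (helper46's team project S2159): every automorphism of the field induces a field automorphism
of the Chevalley group
-/

set_option autoImplicit false

namespace Cfsg.Agent.H43.OS

open Cfsg Cfsg.Lie Cfsg.Agent.H23 Cfsg.Agent.H23.Stb Cfsg.Agent.H46.OS
open scoped MatrixGroups

universe u

/-- **OS-FEX**. -/
theorem fEx : StFEx.{u} := by
  intro F _ D hD σ
  obtain ⟨z, η, w, rT, par, dep, hP⟩ := Cfsg.Agent.H23.packF_all (F := F) D hD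
  have hS := hP.packB.sem
  obtain ⟨φ, hφ⟩ := Cfsg.Agent.H70.Stb.field D F z hS σ
  refine ⟨φ, fun g r t _ hg => ?_⟩
  ext i k
  rw [hφ g, glMap_apply, hg]
  exact x_map (σ : F →+* F) r t i k

example : Cfsg.Agent.H46.OS.StFEx.{u} := fEx

end Cfsg.Agent.H43.OS
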