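import Mathlib
import Cfsg.Agent.H53.VLDrop
import Cfsg.Agent.H53.VLMaxSub
import Cfsg.Agent.H53.VLCover
import Cfsg.Agent.H67.VLKey
import Cfsg.Agent.H80.VLAb
import Cfsg.Agent.H80.VLM3

set_option autoImplicit false
set_option linter.unusedSectionVars false

namespace Cfsg.Agent.H43.VL

open Subgroup

variable {G : Type*} [Group G] [Finite G] {p : ℕ} [Fact p.Prime]

/-- KEY (helper67's `key_rel_of_ab` fed with helper80's `ab_key`). -/
theorem key_rel (hG : IsPGroup p G) (H M : Subgroup G) (hMH : M ≤ H) (hidx : M.relIndex H = p) :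
    ∃ (N₂ : Subgroup G) (β : ℕ), N₂ ≤ M ∧ ⁅M, M⁆ ≤ N₂ ∧
      Nat.card M = p ^ β * Nat.card N₂ ∧
      Nat.card (⁅H, H⁆ : Subgroup G) = p ^ β * Nat.card (⁅M, M⁆ : Subgroup G) ∧
      (∀ x ∈ M, x ∉ N₂ → Subgroup.centralizer ({x} : Set G) ⊓ H ≤ M) ∧
      (∀ t ∈ H, t ∉ M → p ^ β ≤ (Subgroup.centralizer ({t} : Set G)).relIndex H) :=
  Cfsg.Agent.H67.VL.key_rel_of_ab
    (fun _ _ _ _ _ A _ hab hidx => Cfsg.Agent.H80.VL.ab_key A hab hidx) hG H M hMH hidx

/-- triangular numbers -/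
def tri (a : ℕ) : ℕ := a * (a + 1) / 2

theorem tri_succ (n : ℕ) : tri (n + 1) = tri n + (n + 1) := by
  unfold tri
  have h : (n + 1) * (n + 1 + 1) = n * (n + 1) + 2 * (n + 1) := by ring
  rw [h, Nat.add_mul_div_left _ _ (by norm_num : 0 < 2)]

theorem tri_zero : tri 0 = 0 := by simp [tri]

/-- a group is not the union of two proper subgroups (relative version) -/
theorem union2 (A B C : Subgroup G) (hA : A ≤ C) (hB : B ≤ C) (hAne : A ≠ C) (hBne : B ≠ C) :
    ∃ x ∈ C, x ∉ A ∧ x ∉ B := by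
  obtain ⟨x, hxC, hxA⟩ : ∃ x ∈ C, x ∉ A := by
    by_contra h; push Not at h; exact hAne (le_antisymm hA h)
  obtain ⟨y, hyC, hyB⟩ : ∃ y ∈ C, y ∉ B := by
    by_contra h; push Not at h; exact hBne (le_antisymm hB h)
  by_cases hxB : x ∈ B
  · by_cases hyA : y ∈ A
    · refine ⟨x * y, C.mul_mem hxC hyC, ?_, ?_⟩
      · intro h; exact hxA ((Subgroup.mul_mem_cancel_right A hyA).mp h)
      · intro h; exact hyB ((Subgroup.mul_mem_cancel_left B hxB).mp h)
    · exact ⟨y, hyC, hyA, hyB⟩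
  · exact ⟨x, hxC, hxA, hxB⟩

theorem card_of_relIndex (H M : Subgroup G) (hMH : M ≤ H) (hidx : M.relIndex H = p) :
    Nat.card H = p * Nat.card M := by
  have h1 := Subgroup.relIndex_mul_relIndex (⊥ : Subgroup G) M H bot_le hMH
  rw [Subgroup.relIndex_bot_left, Subgroup.relIndex_bot_left, hidx] at h1
  rw [← h1, mul_comm]

theorem ne_of_relIndex (H M : Subgroup G) (hidx : M.relIndex H = p) : M ≠ H := by
  intro h
  rw [h, Subgroup.relIndex_self] at hidx
  exact (Fact.out : p.Prime).one_lt.ne hidx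

theorem relIndex_mono (K M H : Subgroup G) (hMH : M ≤ H) : K.relIndex M ≤ K.relIndex H :=
  Subgroup.relIndex_le_of_le_right hMH (by unfold Subgroup.relIndex; exact Subgroup.index_ne_zero_of_finite)

theorem comm_card_pos (M : Subgroup G) : 0 < Nat.card (⁅M, M⁆ : Subgroup G) := Nat.card_pos

/-- hypotheses of B⁺ -/
def BHyp (p a : ℕ) (H M D : Subgroup G) : Prop :=
  M ≤ H ∧ M.relIndex H = p ∧ D ≤ M ∧ D ≠ M ∧
    ∀ x ∈ M, x ∉ D → (centralizer ({x} : Set G)).relIndex H ≤ p ^ a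

/-- conclusion of B⁺ -/
def BConcl (p a : ℕ) (H M : Subgroup G) : Prop :=
  (Nat.card (⁅H, H⁆ : Subgroup G) = Nat.card (⁅M, M⁆ : Subgroup G) ∧
      Nat.card (⁅M, M⁆ : Subgroup G) ≤ p ^ tri a) ∨
  (1 ≤ a ∧ Nat.card (⁅M, M⁆ : Subgroup G) ≤ p ^ tri (a - 1)) ∨
  (2 ≤ a ∧ Nat.card (⁅H, H⁆ : Subgroup G) = p * Nat.card (⁅M, M⁆ : Subgroup G) ∧
      Nat.card (⁅M, M⁆ : Subgroup G) ≤ p ^ (tri (a - 2) + a))

def BStmt (G : Type*) [Group G] (p a n : ℕ) : Prop :=
  ∀ H M D : Subgroup G, Nat.card H ≤ n → BHyp p a H M D → BConcl p a H M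

def AStmt (G : Type*) [Group G] (p a n : ℕ) : Prop :=
  ∀ C N : Subgroup G, Nat.card C ≤ n → N ≤ C → N ≠ C →
    (∀ x ∈ C, x ∉ N → (centralizer ({x} : Set G)).relIndex C ≤ p ^ a) →
    Nat.card (⁅C, C⁆ : Subgroup G) ≤ p ^ tri a

theorem pow_le_pow_p {m n : ℕ} (h : m ≤ n) : p ^ m ≤ p ^ n :=
  Nat.pow_le_pow_right (Fact.out : p.Prime).pos h

theorem exp_le_of_pow_le {m n : ℕ} (h : p ^ m ≤ p ^ n) : m ≤ n :=
  (Nat.pow_le_pow_iff_right (Fact.out : p.Prime).one_lt).mp h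

/-- from B⁺ conclusion and the β-bound -/
theorem concl_bound (a : ℕ) (H M : Subgroup G) (hc : BConcl p a H M)
    (hβ : Nat.card (⁅H, H⁆ : Subgroup G) ≤ p ^ a * Nat.card (⁅M, M⁆ : Subgroup G)) :
    Nat.card (⁅H, H⁆ : Subgroup G) ≤ p ^ tri a := by
  rcases hc with ⟨h1, h2⟩ | ⟨h1, h2⟩ | ⟨h1, h2, h3⟩
  · rw [h1]; exact h2
  · obtain ⟨k, rfl⟩ : ∃ k, a = k + 1 := ⟨a - 1, by omega⟩
    simp only [Nat.add_sub_cancel] at h2
    calc Nat.card (⁅H, H⁆ : Subgroup G) ≤ p ^ (k + 1) * Nat.card (⁅M, M⁆ : Subgroup G) := hβ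
      _ ≤ p ^ (k + 1) * p ^ tri k := Nat.mul_le_mul_left _ h2
      _ = p ^ tri (k + 1) := by rw [← pow_add, tri_succ]; congr 1; omega
  · obtain ⟨k, rfl⟩ : ∃ k, a = k + 2 := ⟨a - 2, by omega⟩
    simp only [Nat.add_sub_cancel] at h3
    rw [h2]
    calc p * Nat.card (⁅M, M⁆ : Subgroup G) ≤ p * p ^ (tri k + (k + 2)) := Nat.mul_le_mul_left _ h3
      _ = p ^ (tri k + (k + 2) + 1) := by rw [pow_succ]; ring
      _ ≤ p ^ tri (k + 2) := by
          apply pow_le_pow_p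
          rw [tri_succ, tri_succ]; omega

theorem comm_zpowers_bot (x : G) : (⁅Subgroup.zpowers x, Subgroup.zpowers x⁆ : Subgroup G) = ⊥ := by
  rw [Subgroup.commutator_eq_bot_iff_le_centralizer]
  intro y hy
  rw [Subgroup.mem_centralizer_iff]
  intro z hz
  obtain ⟨i, rfl⟩ := Subgroup.mem_zpowers_iff.mp hy
  obtain ⟨j, rfl⟩ := Subgroup.mem_zpowers_iff.mp hz
  exact (Commute.zpow_zpow_self x j i).eq

/-- A(a) at sizes ≤ n from B⁺(a) at sizes ≤ n. -/
theorem A_of_B (hG : IsPGroup p G) (a n : ℕ) (hB : BStmt G p a n) : AStmt G p a n := by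
  intro C N hCn hNC hNne hbr
  obtain ⟨N', hNN', hN'C, hN'idx⟩ := Cfsg.Agent.H53.VL.exists_max_between hG N C hNC hNne
  have hN'ne : N' ≠ C := ne_of_relIndex C N' hN'idx
  obtain ⟨x, hxC, hxN'⟩ : ∃ x ∈ C, x ∉ N' := by
    by_contra h; push Not at h; exact hN'ne (le_antisymm hN'C h)
  by_cases hcyc : Subgroup.zpowers x = C
  · have h0 : (⁅C, C⁆ : Subgroup G) = ⊥ := by rw [← hcyc]; exact comm_zpowers_bot x
    rw [h0, Subgroup.card_bot]
    exact Nat.one_le_pow _ _ (Fact.out : p.Prime).pos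
  · have hzC : Subgroup.zpowers x ≤ C := by rw [Subgroup.zpowers_le]; exact hxC
    obtain ⟨M', hzM', hM'C, hM'idx⟩ :=
      Cfsg.Agent.H53.VL.exists_max_between hG (Subgroup.zpowers x) C hzC hcyc
    have hxM : x ∈ M' := hzM' (Subgroup.mem_zpowers x)
    have hM'ne : M' ≠ C := ne_of_relIndex C M' hM'idx
    have hhyp : BHyp p a C M' (M' ⊓ N') := by
      refine ⟨hM'C, hM'idx, inf_le_left, ?_, ?_⟩
      · intro h
        have : x ∈ M' ⊓ N' := by rw [h]; exact hxM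
        exact hxN' this.2
      · intro y hyM hyD
        apply hbr y (hM'C hyM)
        intro hyN
        exact hyD ⟨hyM, hNN' hyN⟩
    have hc := hB C M' (M' ⊓ N') hCn hhyp
    obtain ⟨t, htC, htM, htN'⟩ := union2 M' N' C hM'C hN'C hM'ne hN'ne
    have htbr : (centralizer ({t} : Set G)).relIndex C ≤ p ^ a :=
      hbr t htC (fun h => htN' (hNN' h))
    obtain ⟨N₂, β, -, -, -, hH', -, hk3⟩ := key_rel hG C M' hM'C hM'idx
    have hβ : Nat.card (⁅C, C⁆ : Subgroup G) ≤ p ^ a * Nat.card (⁅M', M'⁆ : Subgroup G) := by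
      rw [hH']
      exact Nat.mul_le_mul_right _ ((hk3 t htC htM).trans htbr)
    exact concl_bound a C M' hc hβ

/-- the induction step for B⁺ -/
theorem B_step (hG : IsPGroup p G) (a : ℕ)
    (hprev : ∀ a', a' < a → ∀ n, BStmt G p a' n) (n : ℕ) (hBn : BStmt G p a n) :
    BStmt G p a (n + 1) := by
  intro H M D₀ hHn ⟨hMH, hMidx, hD₀M, hD₀ne, hbr₀⟩
  obtain ⟨D, hD₀D, hDM, hDidx⟩ := Cfsg.Agent.H53.VL.exists_max_between hG D₀ M hD₀M hD₀ne
  have hDne : D ≠ M := ne_of_relIndex M D hDidx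
  have hbr : ∀ x ∈ M, x ∉ D → (centralizer ({x} : Set G)).relIndex H ≤ p ^ a :=
    fun x hx hxD => hbr₀ x hx (fun h => hxD (hD₀D h))
  have hcardH : Nat.card H = p * Nat.card M := card_of_relIndex H M hMH hMidx
  have hp2 : 2 ≤ p := (Fact.out : p.Prime).two_le
  have hMn : Nat.card M ≤ n := by
    have hMpos : 0 < Nat.card M := Nat.card_pos
    nlinarith
  obtain ⟨N₂, β, hN₂M, hcomm, hcardM, hH', hk2, hk3⟩ := key_rel hG H M hMH hMidx
  have hbrM : ∀ x ∈ M, x ∉ D → (centralizer ({x} : Set G)).relIndex M ≤ p ^ a :=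
    fun x hx hxD => (relIndex_mono _ M H hMH).trans (hbr x hx hxD)
  rcases Nat.eq_zero_or_pos β with hβ0 | hβpos
  · left
    subst hβ0
    simp only [pow_zero, one_mul] at hH' hcardM
    exact ⟨hH', A_of_B hG a n hBn M D hMn hDM hDne hbrM⟩
  · have hN₂ne : N₂ ≠ M := by
      intro h
      rw [h] at hcardM
      have hMpos : 0 < Nat.card M := Nat.card_pos
      have : 1 < p ^ β := Nat.one_lt_pow hβpos.ne' (Fact.out : p.Prime).one_lt
      nlinarith
    have hg : ∀ x ∈ M, x ∉ D → x ∉ N₂ →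
        (centralizer ({x} : Set G)).relIndex M * p ≤ p ^ a := by
      intro x hx hxD hxN
      rw [Cfsg.Agent.H53.VL.relIndex_drop H M hMH hMidx _ (hk2 x hx hxN)]
      exact hbr x hx hxD
    obtain ⟨x₀, hx₀M, hx₀D, hx₀N⟩ := union2 D N₂ M hDM hN₂M hDne hN₂ne
    have ha1 : 1 ≤ a := by
      by_contra h
      have ha0 : a = 0 := by omega
      have h1 := hg x₀ hx₀M hx₀D hx₀N
      rw [ha0, pow_zero] at h1
      have hpos : 0 < (centralizer ({x₀} : Set G)).relIndex M :=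
        Nat.pos_of_ne_zero (by unfold Subgroup.relIndex; exact Subgroup.index_ne_zero_of_finite)
      nlinarith
    obtain ⟨k, rfl⟩ : ∃ k, a = k + 1 := ⟨a - 1, by omega⟩
    have hg' : ∀ x ∈ M, x ∉ D → x ∉ N₂ →
        (centralizer ({x} : Set G)).relIndex M ≤ p ^ k := by
      intro x hx hxD hxN
      have h1 := hg x hx hxD hxN
      rw [pow_succ] at h1
      exact Nat.le_of_mul_le_mul_right h1 (Fact.out : p.Prime).pos
    by_cases hN₂D : N₂ ≤ D
    · right; left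
      refine ⟨ha1, ?_⟩
      simp only [Nat.add_sub_cancel]
      have hAk : AStmt G p k (Nat.card M) := A_of_B hG k _ (hprev k (by omega) _)
      exact hAk M D le_rfl hDM hDne (fun x hx hxD => hg' x hx hxD (fun h => hxD (hN₂D h)))
    · obtain ⟨M₃, hM₃M, hM₃idx, hM₃N₂, hM₃D⟩ :=
        Cfsg.Agent.H80.VL.exists_M3 hG M D N₂ hDM hDidx hN₂M hcomm hN₂D hN₂ne
      have hE : BHyp p k M M₃ (M₃ ⊓ D) := by
        refine ⟨hM₃M, hM₃idx, inf_le_left, ?_, ?_⟩
        · intro h; exact hM₃D (by rw [← h]; exact inf_le_right)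
        · intro x hxM₃ hxE
          have hxD : x ∉ D := fun h => hxE ⟨hxM₃, h⟩
          have hxN : x ∉ N₂ := fun h => hxD (hM₃N₂ ⟨hxM₃, h⟩)
          exact hg' x (hM₃M hxM₃) hxD hxN
      have hc := hprev k (by omega) (Nat.card M) M M₃ (M₃ ⊓ D) le_rfl hE
      rcases hc with ⟨h1, h2⟩ | ⟨h1, h2⟩ | ⟨h1, h2, h3⟩
      · right; left
        refine ⟨ha1, ?_⟩
        simp only [Nat.add_sub_cancel]
        rw [h1]; exact h2
      · obtain ⟨j, rfl⟩ : ∃ j, k = j + 1 := ⟨k - 1, by omega⟩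
        simp only [Nat.add_sub_cancel] at h2
        obtain ⟨N₃, β', -, -, -, hM', -, hk3'⟩ := key_rel hG M M₃ hM₃M hM₃idx
        by_cases hw : ∃ w ∈ M, w ∉ M₃ ∧ w ∉ D ∧ w ∉ N₂
        · obtain ⟨w, hwM, hwM₃, hwD, hwN⟩ := hw
          right; left
          refine ⟨ha1, ?_⟩
          simp only [Nat.add_sub_cancel]
          have hb : p ^ β' ≤ p ^ (j + 1) := (hk3' w hwM hwM₃).trans (hg' w hwM hwD hwN)
          rw [hM']
          calc p ^ β' * Nat.card (⁅M₃, M₃⁆ : Subgroup G)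
              ≤ p ^ (j + 1) * p ^ tri j := Nat.mul_le_mul hb h2
            _ = p ^ tri (j + 1) := by rw [← pow_add, tri_succ]; congr 1; omega
        · have hcover : ∀ w ∈ M, w ∈ M₃ ∨ w ∈ D ∨ w ∈ N₂ := by
            intro w hw'
            by_contra hcon
            apply hw
            refine ⟨w, hw', fun h => hcon (Or.inl h), fun h => hcon (Or.inr (Or.inl h)),
              fun h => hcon (Or.inr (Or.inr h))⟩
          have hcard2 := Cfsg.Agent.H53.VL.cover_card hG M D N₂ M₃ hDM hDidx hN₂M hN₂D hN₂ne hM₃M hM₃idx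
            hM₃N₂ hM₃D hcover
          have hβ1 : p ^ β = p := by
            have hNpos : 0 < Nat.card N₂ := Nat.card_pos
            have : p ^ β * Nat.card N₂ = p * Nat.card N₂ := by rw [← hcardM, hcard2]
            exact Nat.eq_of_mul_eq_mul_right hNpos this
          obtain ⟨w, hwN, hwD⟩ : ∃ w ∈ N₂, w ∉ D := by
            by_contra h; push Not at h; exact hN₂D h
          have hwM : w ∈ M := hN₂M hwN
          have hwM₃ : w ∉ M₃ := fun h => hwD (hM₃N₂ ⟨h, hwN⟩)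
          have hb : p ^ β' ≤ p ^ (j + 1 + 1) := (hk3' w hwM hwM₃).trans (hbrM w hwM hwD)
          right; right
          refine ⟨by omega, ?_, ?_⟩
          · rw [hH', hβ1]
          · simp only [show j + 1 + 1 - 2 = j by omega]
            rw [hM']
            calc p ^ β' * Nat.card (⁅M₃, M₃⁆ : Subgroup G)
                ≤ p ^ (j + 1 + 1) * p ^ tri j := Nat.mul_le_mul hb h2
              _ = p ^ (tri j + (j + 1 + 1)) := by rw [← pow_add]; congr 1; omega
      · obtain ⟨j, rfl⟩ : ∃ j, k = j + 2 := ⟨k - 2, by omega⟩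
        simp only [Nat.add_sub_cancel] at h3
        right; left
        refine ⟨ha1, ?_⟩
        simp only [Nat.add_sub_cancel]
        rw [h2]
        calc p * Nat.card (⁅M₃, M₃⁆ : Subgroup G)
            ≤ p * p ^ (tri j + (j + 2)) := Nat.mul_le_mul_left _ h3
          _ = p ^ (tri j + (j + 2) + 1) := by rw [pow_succ]; ring
          _ ≤ p ^ tri (j + 2) := by
              apply pow_le_pow_p
              rw [tri_succ, tri_succ]; omega

theorem B_all (hG : IsPGroup p G) : ∀ a n, BStmt G p a n := by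
  intro a
  induction a using Nat.strong_induction_on with
  | _ a ih =>
    intro n
    induction n with
    | zero =>
      intro H M D hH _
      have : 0 < Nat.card H := Nat.card_pos
      omega
    | succ n ihn => exact B_step hG a ih n ihn

/-- Vaughan-Lee's theorem. -/
theorem vaughan_lee (hG : IsPGroup p G) (b : ℕ)
    (hb : ∀ x : G, (Subgroup.centralizer ({x} : Set G)).index ≤ p ^ b) :
    Nat.card (commutator G) ≤ p ^ (b * (b + 1) / 2) := by
  have hA : AStmt G p b (Nat.card (⊤ : Subgroup G)) := A_of_B hG b _ (B_all hG b _)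
  show Nat.card (⁅(⊤ : Subgroup G), ⊤⁆ : Subgroup G) ≤ p ^ tri b
  by_cases htriv : (⊥ : Subgroup G) = ⊤
  · have h0 : (⁅(⊤ : Subgroup G), ⊤⁆ : Subgroup G) = ⊥ := by
      rw [eq_bot_iff]; rw [htriv]; exact le_top
    rw [h0, Subgroup.card_bot]
    exact Nat.one_le_pow _ _ (Fact.out : p.Prime).pos
  · exact hA ⊤ ⊥ le_rfl bot_le htriv
      (fun x _ _ => by rw [Subgroup.relIndex_top_right]; exact hb x)

end Cfsg.Agent.H43.VL
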